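import Cfsg.Agent.H50.TensorO.Layer
import Cfsg.Agent.H25.GeoLists.SpTensor.Maximal
import Cfsg.Agent.H5.OmegaGL
import Cfsg.Agent.H5.SmallBlocksCases
import Cfsg.Agent.H98.QuadFun

/-!
The stabiliser of a decomposition as a tensor product of two orthogonal spaces of different dimensions is maximal
in `Ω`.
-/

set_option autoImplicit false
set_option linter.unusedSectionVars false

namespace Cfsg.Agent.H50.TensorO

open QuadraticMap hiding sq
open Module Cfsg.Agent.H5
open scoped Matrix

variable {ι : Type} [Fintype ι] [DecidableEq ι] {F : Type*} [Field F] [Finite F]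
  {A : Type*} [AddCommGroup A] [Module F A] [FiniteDimensional F A] [Finite A]
  {B : Type*} [AddCommGroup B] [Module F B] [FiniteDimensional F B] [Finite B]

/-- The core of the maximality proof. -/
theorem isMaximal_of_pure (Q : QuadraticForm F (ι → F)) {f : (ι → F) → F} (hf : ⇑Q = f)
    (h2 : (2 : F) ≠ 0) (hQ : (polarBilin Q).Nondegenerate) (qA : QuadraticForm F A) (qB : QuadraticForm F B)
    (hA : (polarBilin qA).Nondegenerate) (hB : (polarBilin qB).Nondegenerate)
    (pu : A →ₗ[F] B →ₗ[F] (ι → F))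
    (form : ∀ x u y v, polar Q (pu x u) (pu y v) = polar qA x y * polar qB u v)
    (hgen : ∀ φ : (ι → F) →ₗ[F] F, (∀ x u, φ (pu x u) = 0) → φ = 0)
    (h3 : 3 ≤ finrank F A) (hlt : finrank F A < finrank F B) (h5 : 5 ≤ finrank F B)
    (hbig : 5 ≤ Nat.card F ∨ 4 ≤ finrank F A)
    (h4 : finrank F A = 4 → ∀ u y : A, qA u = 0 → qA y = 0 → polar qA u y = 0 → u ≠ 0 →
      y ∈ Submodule.span F {u})
    (S : Subgroup (GL ι F)) (hS : ∀ g : orth Q, toGLHom Q hf g ∈ S ↔ Pure pu g)
    (hex : ∀ (g : orth qA) (h : orth qB), ∃ k : orth Q, ∀ x u,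
      (k : (ι → F) ≃ₗ[F] (ι → F)) (pu x u) = pu ((g : A ≃ₗ[F] A) x) ((h : B ≃ₗ[F] B) u)) :
    Cfsg.Geo.IsMaximalIn (Cfsg.Geo.omegaGL f) (S ⊓ Cfsg.Geo.omegaGL f) := by
  classical
  haveI : Finite (ι → F) := Pi.finite
  choose Ψ hΨ using hex
  let C : B →ₗ[F] (ι → F) →ₗ[F] A :=
    LinearMap.mk₂ F (fun u v => (LinearMap.BilinForm.toDual (polarBilin qA) hA).symm
      ((polarBilin Q v).comp (pu.flip u)))
      (fun u u' v => by simp only [map_add, LinearMap.comp_add])
      (fun r u v => by simp only [map_smul, LinearMap.comp_smul])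
      (fun u v v' => by simp only [map_add, LinearMap.add_comp])
      (fun r u v => by simp only [map_smul, LinearMap.smul_comp])
  have mk : ∀ M : Subgroup (orth Q),
      (∀ g ∈ commutator (orth Q), toGLHom Q hf g ∈ S → g ∈ M) → TO Q qA qB M pu C := by
    intro M hM
    have hadj : ∀ u v x, polar qA (C u v) x = polar Q v (pu x u) := fun u v x =>
      LinearMap.BilinForm.apply_toDual_symm_apply (hB := hA) ((polarBilin Q v).comp (pu.flip u)) x
    refine
      { two := h2
        hA := hA
        hB := hB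
        hQ := hQ
        form := form
        adj := hadj
        span := fun v hv => hQ.1 v fun y => LinearMap.congr_fun (hgen (polarBilin Q v) hv) y
        tens := fun g hg h hh => ?_
        three := h3
        lt := hlt
        five := h5
        big := hbig }
    have hext : ∀ k k' : orth Q, (∀ x u, (k : (ι → F) ≃ₗ[F] (ι → F)) (pu x u) = (k' : (ι → F) ≃ₗ[F] (ι → F)) (pu x u)) →
        k = k' := fun k k' hk => orth_ext fun v => funext fun i => by
      have := LinearMap.congr_fun (hgen ((LinearMap.proj i).comp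
        ((k : (ι → F) ≃ₗ[F] (ι → F)).toLinearMap - (k' : (ι → F) ≃ₗ[F] (ι → F)).toLinearMap))
        (fun x u => by simp [hk x u])) v
      simpa [sub_eq_zero] using this
    let ψA : orth qA →* orth Q :=
      { toFun := fun g => Ψ g 1
        map_one' := hext _ _ fun x u => hΨ _ _ x u
        map_mul' := fun g g' => hext _ _ fun x u => by
          rw [orth_mul_apply, hΨ, hΨ, hΨ, orth_mul_apply]
          rfl }
    let ψB : orth qB →* orth Q :=
      { toFun := fun h => Ψ 1 h
        map_one' := hext _ _ fun x u => hΨ _ _ x u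
        map_mul' := fun g g' => hext _ _ fun x u => by
          rw [orth_mul_apply, hΨ, hΨ, hΨ, orth_mul_apply]
          rfl }
    have hcA : ψA g ∈ commutator (orth Q) := by
      have : (commutator (orth qA)).map ψA ≤ commutator (orth Q) := by
        rw [commutator_def, Subgroup.map_commutator, commutator_def]
        exact Subgroup.commutator_mono le_top le_top
      exact this ⟨g, hg, rfl⟩
    have hcB : ψB h ∈ commutator (orth Q) := by
      have : (commutator (orth qB)).map ψB ≤ commutator (orth Q) := by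
        rw [commutator_def, Subgroup.map_commutator, commutator_def]
        exact Subgroup.commutator_mono le_top le_top
      exact this ⟨h, hh, rfl⟩
    have hact : ∀ x u, ((ψA g * ψB h : orth Q) : (ι → F) ≃ₗ[F] (ι → F)) (pu x u) =
        pu ((g : A ≃ₗ[F] A) x) ((h : B ≃ₗ[F] B) u) := fun x u => by
      rw [orth_mul_apply]
      exact (congrArg _ (hΨ 1 h x u)).trans (hΨ g 1 _ _)
    exact ⟨_, hM _ (mul_mem hcA hcB) ((hS _).2 ⟨(g : A ≃ₗ[F] A).toLinearMap, (h : B ≃ₗ[F] B).toLinearMap, hact⟩),
      hact⟩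
  have hdim : 5 ≤ finrank F (ι → F) := by
    have T := mk ⊤ fun g _ _ => Subgroup.mem_top g
    obtain ⟨a₀, -, -, ha₀⟩ := T.exists_pair_one
    have := LinearMap.finrank_le_finrank_of_injective
      (f := pu a₀) ((injective_iff_map_eq_zero (pu a₀)).2 fun w hw => (T.pu_eq_zero hw).resolve_left ha₀)
    omega
  refine isMaximalIn_omegaGL Q hf S ?_ ?_
  · have T := mk ⊤ fun g _ _ => Subgroup.mem_top g
    obtain ⟨u, hu0, hu⟩ := exists_singular hA h3
    obtain ⟨v, h⟩ := exists_hypPair hA hu0 hu
    obtain ⟨z, hz0, hz⟩ := exists_singular hB (by omega)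
    obtain ⟨η, z', η', L⟩ := T.exists_line_through hz0 hz
    have huu : polar qA u u = 0 := by rw [polar_self', hu, mul_zero]
    have he : Q (pu u z) = 0 := by
      have := polar_self' Q (pu u z)
      rw [form, huu, zero_mul] at this
      exact (mul_eq_zero.1 this.symm).resolve_left h2
    have hq : Q (pu u η) = 0 := by
      have := polar_self' Q (pu u η)
      rw [form, huu, zero_mul] at this
      exact (mul_eq_zero.1 this.symm).resolve_left h2
    have hea : polar Q (pu u z) (pu u η) = 0 := by rw [form, huu, zero_mul]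
    refine ⟨eich Q (pu u z) (pu u η), eich_mem_commutator hQ hdim _ _, fun hmem => ?_⟩
    obtain ⟨G, K, hGK⟩ := (hS _).1 hmem
    have hg : ∀ x w, pu (G x) (K w) =
        pu x w + polar qA u x • pu u (polar qB z w • η - polar qB η w • z) := fun x w => by
      rw [← hGK, eich_apply he hea, form, form, hq, zero_mul, zero_smul, sub_zero, map_sub, map_smul, map_smul,
        smul_sub, smul_smul, smul_smul, add_sub_assoc]
    obtain ⟨x₀, hx₀, hx₀n⟩ := exists_anisotropic (h.inf_perp hA) (by have := h.finrank_pperp hA; omega)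
    obtain ⟨hx₀u, -⟩ := mem_pperp.1 hx₀
    have hx₀0 : x₀ ≠ 0 := fun h0 => hx₀n (by rw [h0, QuadraticMap.map_zero])
    obtain ⟨i, hi⟩ := exists_polar_eq_one hA hx₀0
    set lam := polar qA (G x₀) i
    have hK : ∀ w, lam • K w = w := fun w => T.Bext fun j => by
      have h1 := congrArg (fun r => polar qA (C j r) i) (hg x₀ w)
      simp only [hx₀u, zero_smul, add_zero, T.C_pu, polar_smul_left, hi, smul_eq_mul, mul_one] at h1
      rw [polar_smul_left, smul_eq_mul, mul_comm]
      exact h1
    have h1 := congrArg (fun r => polar qA (C η' r) v) (hg v z')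
    have hKz : polar qB (K z') η' = 0 := by
      have h' := congrArg (fun r => polar qB r η') (hK z')
      simp only [polar_smul_left, L.z'η', smul_eq_mul, mul_eq_zero] at h'
      refine h'.resolve_left fun h0 => ?_
      have := hK z'
      rw [h0, zero_smul] at this
      exact L.hp.symm.ne_zero this.symm
    simp only [map_add, map_smul, T.C_pu, map_sub, polar_comm (⇑qB) η z', L.z'η, L.hp.pair, h.pair, one_smul,
      zero_smul, sub_zero, L.z'η', hKz, L.hq.pair, polar_zero_left, zero_add] at h1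
    exact zero_ne_one h1
  · intro M hM g hgM _ hgS
    have T := mk M hM
    by_cases hgood : Good qB M pu C
    · exact absurd ((hS g).2 (T.all_pure hgood g hgM)) hgS
    · exact T.commutator_le_of_not_good hgood h4

/-- A symmetric non-degenerate bilinear function as a quadratic form with that polar form. -/
theorem exists_quad {κ : Type} [Fintype κ] [DecidableEq κ] (h2 : (2 : F) ≠ 0) {g : (κ → F) → (κ → F) → F}
    (hg : Cfsg.Geo.IsSymmetricForm g) {c : F} (hc : c ≠ 0) :
    ∃ q : QuadraticForm F (κ → F), (polarBilin q).Nondegenerate ∧ (∀ x y, polar q x y = c * g x y) ∧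
      ∀ x, q x = c * (2 : F)⁻¹ * g x x := by
  have hb : ∀ x, ((c * (2 : F)⁻¹) • LinearMap.BilinMap.toQuadraticMap (H25.GeoLists.bilinOf g hg.bilinear) :
      QuadraticForm F (κ → F)) x = c * (2 : F)⁻¹ * g x x := fun x => rfl
  refine ⟨_, ?_, ?_, hb⟩
  swap
  · intro x y
    simp only [polar, hb, hg.bilinear.add_left, hg.bilinear.add_right, hg.symm y x]
    field_simp
    ring
  have hp : ∀ x y, polar ((c * (2 : F)⁻¹) • LinearMap.BilinMap.toQuadraticMap
      (H25.GeoLists.bilinOf g hg.bilinear) : QuadraticForm F (κ → F)) x y = c * g x y := fun x y => by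
    simp only [polar, hb, hg.bilinear.add_left, hg.bilinear.add_right, hg.symm y x]
    field_simp
    ring
  refine nondegenerate_of_forall fun x hx => ?_
  by_contra h0
  obtain ⟨-, y, hy⟩ := hg.nondegenerate x h0
  have := hx y
  rw [hp] at this
  exact hy ((mul_eq_zero.1 this).resolve_left hc)

/-- The stabiliser of a tensor decomposition of orthogonal type is maximal in `Ω`. -/
theorem omega_tensor_maximal [Fintype F] (Q : QuadraticForm F (ι → F)) {f : (ι → F) → F} (hf : ⇑Q = f)
    (h2 : (2 : F) ≠ 0) (hQ : (polarBilin Q).Nondegenerate) {n₁ n₂ : ℕ} (h1 : 3 ≤ n₁) (h1' : 3 ≤ n₂)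
    (e : ι ≃ Fin n₁ × Fin n₂) (P : GL ι F) (f₁ : (Fin n₁ → F) → (Fin n₁ → F) → F)
    (f₂ : (Fin n₂ → F) → (Fin n₂ → F) → F) (hf₁ : Cfsg.Geo.IsSymmetricForm f₁) (hf₂ : Cfsg.Geo.IsSymmetricForm f₂)
    (hT : Cfsg.Geo.IsTensorFormStructure id (QuadraticMap.polar f) f₁ f₂ e P)
    (hcase : (n₁ < n₂ ∧ 5 ≤ n₂ ∧ (5 ≤ Fintype.card F ∨ 4 ≤ n₁) ∧ n₁ ≠ 4) ∨
      (n₂ < n₁ ∧ 5 ≤ n₁ ∧ (5 ≤ Fintype.card F ∨ 4 ≤ n₂) ∧
        (n₂ = 4 → ¬ Cfsg.Geo.IsPlusTypeOn (fun v : Fin n₂ → F => f₂ v v) ⊤))) :
    Cfsg.Geo.IsMaximalIn (Cfsg.Geo.omegaGL f)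
      (Cfsg.Geo.tensorProductSubgroup n₁ n₂ e P ⊓ Cfsg.Geo.omegaGL f) := by
  classical
  obtain ⟨c, hc, hT⟩ := hT
  obtain ⟨qA, hAn, hAp, -⟩ := exists_quad h2 hf₁ hc
  obtain ⟨qB, hBn, hBp, hBv⟩ := exists_quad h2 hf₂ one_ne_zero
  simp only [one_mul] at hBp
  set pu : (Fin n₁ → F) →ₗ[F] (Fin n₂ → F) →ₗ[F] (ι → F) :=
    (H1.TensorNM.pure).compr₂ (H1.TensorNM.tensorEquiv e P).toLinearMap with hpu
  have hpu' : ∀ x u, pu x u = H1.TensorNM.tensorEquiv e P (H1.TensorNM.pure x u) := fun x u => rfl
  have hs : ∀ {k : ℕ} {g : (Fin k → F) → (Fin k → F) → F}, Cfsg.Geo.IsSymmetricForm g →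
      H1.TensorNM.Sesq (RingHom.id F) 1 g := fun hg => ⟨hg.bilinear.add_left, hg.bilinear.smul_left,
    fun x y => by rw [hg.symm y x, RingHom.id_apply, one_mul]⟩
  have form : ∀ x u y v, polar Q (pu x u) (pu y v) = polar qA x y * polar qB u v := by
    intro x u y v
    rw [hf, hpu', hpu', H1.TensorNM.tensorEquiv_apply, H1.TensorNM.tensorEquiv_apply, hT, hAp, hBp]
    show c * Cfsg.Geo.formOfGram (RingHom.id F) _ _ _ = _
    rw [H1.TensorNM.gram_pure (hs hf₁) (hs hf₂), mul_assoc]
  have hgen : ∀ φ : (ι → F) →ₗ[F] F, (∀ x u, φ (pu x u) = 0) → φ = 0 := fun φ hφ => LinearMap.ext fun v => by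
    obtain ⟨X, rfl⟩ := (H1.TensorNM.tensorEquiv e P).surjective v
    exact LinearMap.congr_fun (H25.GeoLists.pu_ext (f := φ.comp (H1.TensorNM.tensorEquiv e P).toLinearMap) (g := 0)
      fun x z => hφ x z) X
  set S := Cfsg.Geo.tensorProductSubgroup n₁ n₂ e P
  have hS : ∀ g : orth Q, toGLHom Q hf g ∈ S ↔ Pure pu g := by
    intro g
    constructor
    · intro h
      obtain ⟨a, b, hab⟩ := H1.TensorNM.exists_action e P _ h
      exact ⟨a, b, fun x u => by rw [← toGLHom_mulVec Q hf]; exact hab x u⟩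
    · rintro ⟨a, b, hab⟩
      exact H25.GeoLists.mem_of_pure_action (by omega) (by omega) e P _ a b fun x u => by
        rw [toGLHom_mulVec]; exact hab x u
  have hex : ∀ (g : orth qA) (h : orth qB), ∃ k : orth Q, ∀ x u,
      (k : (ι → F) ≃ₗ[F] (ι → F)) (pu x u) =
        pu ((g : (Fin n₁ → F) ≃ₗ[F] (Fin n₁ → F)) x) ((h : (Fin n₂ → F) ≃ₗ[F] (Fin n₂ → F)) u) := by
    intro g h
    obtain ⟨K, -, hK⟩ := H25.GeoLists.exists_pure_elem e P g.1.toLinearMap h.1.toLinearMap g.1.injective h.1.injective
    let L : (ι → F) →ₗ[F] (ι → F) := Matrix.mulVecLin (K : Matrix ι ι F)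
    have hLinj : Function.Injective L := Matrix.mulVec_injective_iff_isUnit.2 K.isUnit
    let Le := LinearEquiv.ofInjectiveEndo L hLinj
    have hLe : ∀ x u, Le (pu x u) = pu ((g : (Fin n₁ → F) ≃ₗ[F] _) x) ((h : (Fin n₂ → F) ≃ₗ[F] _) u) :=
      fun x u => hK x u
    have hp : ∀ v w, polar Q (Le v) (Le w) = polar Q v w := by
      intro v
      have h1 : ∀ x u w, polar Q (Le (pu x u)) (Le w) = polar Q (pu x u) w := by
        intro x u w
        have := LinearMap.congr_fun (hgen ((polarBilin Q (Le (pu x u))).comp Le.toLinearMap - polarBilin Q (pu x u))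
          fun y t => by simp [hLe, form, orth_polar]) w
        simpa [sub_eq_zero] using this
      intro w
      have := LinearMap.congr_fun (hgen ((polarBilin Q (Le w)).comp Le.toLinearMap - polarBilin Q w)
        fun y t => by
          simp only [LinearMap.sub_apply, LinearMap.comp_apply, LinearEquiv.coe_coe, polarBilin_apply_apply]
          rw [polar_comm, h1, polar_comm, sub_self]) v
      simp only [LinearMap.sub_apply, LinearMap.comp_apply, LinearEquiv.coe_coe, polarBilin_apply_apply,
        LinearMap.zero_apply, sub_eq_zero] at this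
      rw [polar_comm, this, polar_comm]
    refine ⟨⟨Le, mem_orth.2 fun v => ?_⟩, hLe⟩
    have := hp v v
    rw [polar_self', polar_self'] at this
    exact mul_left_cancel₀ h2 this
  have hcard : Nat.card F = Fintype.card F := Nat.card_eq_fintype_card
  rcases hcase with ⟨hlt, h5, hbig, hne⟩ | ⟨hlt, h5, hbig, hm⟩
  · exact isMaximal_of_pure Q hf h2 hQ qA qB hAn hBn pu form hgen (by simpa using h1) (by simpa using hlt)
      (by simpa using h5) (by simpa [hcard] using hbig) (fun h => absurd (by simpa using h) hne) S hS hex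
  · have hS' : ∀ g : orth Q, toGLHom Q hf g ∈ S ↔ Pure pu.flip g := fun g => (hS g).trans
      ⟨fun ⟨a, b, h⟩ => ⟨b, a, fun x u => h u x⟩, fun ⟨a, b, h⟩ => ⟨b, a, fun x u => h u x⟩⟩
    refine isMaximal_of_pure Q hf h2 hQ qB qA hBn hAn pu.flip
      (fun x u y v => by simp only [LinearMap.flip_apply]; rw [form, mul_comm])
      (fun φ hφ => hgen φ fun x u => hφ u x) (by simpa using h1') (by simpa using hlt) (by simpa using h5)
      (by simpa [hcard] using hbig) (fun h4 u y hu hy huy hu0 => ?_) S hS' ?_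
    · by_contra hmem
      refine hm (by simpa using h4) ⟨Submodule.span F {u, y}, le_top, ?_, ?_⟩
      · intro w hw
        obtain ⟨s, t, rfl⟩ := Submodule.mem_span_pair.1 hw
        have hq : qB (s • u + t • y) = 0 := by
          rw [QuadraticMap.map_add (⇑qB), QuadraticMap.map_smul, QuadraticMap.map_smul, hu, hy, polar_smul_left,
            polar_smul_right, huy]
          simp
        rw [hBv, one_mul, mul_eq_zero] at hq
        exact hq.resolve_left (inv_ne_zero h2)
      · have hi : LinearIndependent F ![u, y] := by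
          rw [LinearIndependent.pair_iff' hu0]
          exact fun a ha => hmem (Submodule.mem_span_singleton.2 ⟨a, ha⟩)
        have hr := finrank_span_eq_card hi
        rw [Matrix.range_cons, Matrix.range_cons, Matrix.range_empty, Set.union_empty, Set.singleton_union] at hr
        rw [hr, finrank_top, h4]
        simp
    · intro g h
      obtain ⟨k, hk⟩ := hex h g
      exact ⟨k, fun x u => hk u x⟩

end Cfsg.Agent.H50.TensorO
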