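import Cfsg.Agent.H5.RootClosure
import Cfsg.Agent.H5.OmegaSimple

/-!
An orthogonal space presented as the tensor product of two orthogonal spaces: root elements coming from the second
factor and frames of totally singular lines.
-/

set_option autoImplicit false
set_option linter.unusedSectionVars false

namespace Cfsg.Agent.H50.TensorO

open QuadraticMap hiding sq
open Module Cfsg.Agent.H5

variable {F : Type*} [Field F] [Finite F]
  {V : Type*} [AddCommGroup V] [Module F V] [FiniteDimensional F V] [Finite V]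
  {A : Type*} [AddCommGroup A] [Module F A] [FiniteDimensional F A] [Finite A]
  {B : Type*} [AddCommGroup B] [Module F B] [FiniteDimensional F B] [Finite B]

/-- The data: the form on `V` is the product of the forms on the two factors, and `M` contains the products of
elements of the two commutator groups. -/
structure TO (Q : QuadraticForm F V) (qA : QuadraticForm F A) (qB : QuadraticForm F B) (M : Subgroup (orth Q))
    (pu : A →ₗ[F] B →ₗ[F] V) (C : B →ₗ[F] V →ₗ[F] A) : Prop where
  two : (2 : F) ≠ 0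
  hA : (polarBilin qA).Nondegenerate
  hB : (polarBilin qB).Nondegenerate
  hQ : (polarBilin Q).Nondegenerate
  form : ∀ x u y v, polar Q (pu x u) (pu y v) = polar qA x y * polar qB u v
  adj : ∀ u v x, polar qA (C u v) x = polar Q v (pu x u)
  span : ∀ v, (∀ x u, polar Q v (pu x u) = 0) → v = 0
  tens : ∀ g ∈ commutator (orth qA), ∀ h ∈ commutator (orth qB), ∃ k ∈ M, ∀ x u,
    (k : V ≃ₗ[F] V) (pu x u) = pu ((g : A ≃ₗ[F] A) x) ((h : B ≃ₗ[F] B) u)
  three : 3 ≤ finrank F A
  lt : finrank F A < finrank F B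
  five : 5 ≤ finrank F B
  big : 5 ≤ Nat.card F ∨ 4 ≤ finrank F A

variable {Q : QuadraticForm F V} {qA : QuadraticForm F A} {qB : QuadraticForm F B} {M : Subgroup (orth Q)}
  {pu : A →ₗ[F] B →ₗ[F] V} {C : B →ₗ[F] V →ₗ[F] A}

/-- A pure tensor product map. -/
def Pure (pu : A →ₗ[F] B →ₗ[F] V) (y : orth Q) : Prop :=
  ∃ (G : A →ₗ[F] A) (K : B →ₗ[F] B), ∀ a w, (y : V ≃ₗ[F] V) (pu a w) = pu (G a) (K w)

theorem Pure.one : Pure pu (1 : orth Q) :=
  ⟨LinearMap.id, LinearMap.id, fun _ _ => rfl⟩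

theorem Pure.mul {y y' : orth Q} (hy : Pure pu y) (hy' : Pure pu y') : Pure pu (y * y') := by
  obtain ⟨G, K, h⟩ := hy
  obtain ⟨G', K', h'⟩ := hy'
  exact ⟨G.comp G', K.comp K', fun a w => by rw [orth_mul_apply, h', h]; rfl⟩

variable (pu) in
/-- The pure elements. -/
def pureMonoid : Submonoid (orth Q) where
  carrier := {y | Pure pu y}
  one_mem' := Pure.one
  mul_mem' := fun h h' => h.mul h'

theorem Pure.inv {y : orth Q} (hy : Pure pu y) : Pure pu y⁻¹ := by
  haveI : Finite (orth Q) := by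
    refine Finite.of_injective (fun g : orth Q => ⇑(g : V ≃ₗ[F] V)) fun g h e => ?_
    exact orth_ext fun v => congrFun e v
  have h : y⁻¹ ∈ Submonoid.powers y := by
    rw [mem_powers_iff_mem_zpowers]
    exact inv_mem (Subgroup.mem_zpowers y)
  exact Submonoid.powers_le.2 (show y ∈ pureMonoid pu from hy) h

/-- The linear map `v ↦ pu (C z v) w - pu (C w v) z - q(w) pu (C z v) z`. -/
def nil (qB : QuadraticForm F B) (pu : A →ₗ[F] B →ₗ[F] V) (C : B →ₗ[F] V →ₗ[F] A) (z w : B) : V →ₗ[F] V :=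
  (pu.flip w).comp (C z) - (pu.flip z).comp (C w) - qB w • (pu.flip z).comp (C z)

theorem nil_apply (z w : B) (v : V) :
    nil qB pu C z w v = pu (C z v) w - pu (C w v) z - qB w • pu (C z v) z := by
  simp [nil]

namespace TO


variable (T : TO Q qA qB M pu C)
include T

theorem Aext {x y : A} (h : ∀ z, polar qA x z = polar qA y z) : x = y := by
  rw [← sub_eq_zero]
  exact T.hA.1 _ fun z => by
    rw [polarBilin_apply_apply, polar_sub_left, h, sub_self]

theorem Bext {x y : B} (h : ∀ z, polar qB x z = polar qB y z) : x = y := by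
  rw [← sub_eq_zero]
  exact T.hB.1 _ fun z => by
    rw [polarBilin_apply_apply, polar_sub_left, h, sub_self]

theorem C_pu (u : B) (a : A) (w : B) : C u (pu a w) = polar qB w u • a :=
  T.Aext fun y => by rw [T.adj, T.form, polar_smul_left, smul_eq_mul, mul_comm]

theorem adj' (u : B) (v : V) (x : A) : polar Q (pu x u) v = polar qA x (C u v) := by
  rw [polar_comm, ← T.adj, polar_comm]

theorem Vext {v v' : V} (h : ∀ u, C u v = C u v') : v = v' := by
  rw [← sub_eq_zero]
  refine T.span _ fun x u => ?_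
  rw [← T.adj, map_sub, h, sub_self, polar_zero_left]

theorem eq_of_pure {f g : V →ₗ[F] V} (h : ∀ a w, f (pu a w) = g (pu a w)) : f = g := by
  let S : Submodule F V := LinearMap.ker (f - g)
  suffices hS : S = ⊤ by
    refine LinearMap.ext fun v => ?_
    have : v ∈ S := by rw [hS]; trivial
    rw [LinearMap.mem_ker, LinearMap.sub_apply, sub_eq_zero] at this
    exact this
  have hle : ∀ a w, pu a w ∈ S := fun a w => by
    rw [LinearMap.mem_ker, LinearMap.sub_apply, h, sub_self]
  rw [← perp_perp T.hQ S]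
  have hbot : perp Q S = ⊥ := by
    rw [eq_bot_iff]
    intro v hv
    refine (Submodule.mem_bot F).2 (T.span v fun a w => ?_)
    rw [polar_comm]
    exact mem_perp.1 hv _ (hle a w)
  rw [hbot, eq_top_iff]
  intro v _
  exact mem_perp.2 fun w hw => by rw [(Submodule.mem_bot F).1 hw, polar_zero_left]

theorem orth_ext_pure {g h : orth Q} (hh : ∀ a w, (g : V ≃ₗ[F] V) (pu a w) = (h : V ≃ₗ[F] V) (pu a w)) :
    g = h :=
  orth_ext fun v => LinearMap.congr_fun
    (T.eq_of_pure (f := (g : V ≃ₗ[F] V).toLinearMap) (g := (h : V ≃ₗ[F] V).toLinearMap) hh) v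

theorem pu_eq_zero {a : A} {w : B} (h : pu a w = 0) : a = 0 ∨ w = 0 := by
  by_cases hw : w = 0
  · exact Or.inr hw
  refine Or.inl ?_
  obtain ⟨u, hu⟩ := exists_polar_eq_one T.hB hw
  have := congrArg (C u) h
  rwa [T.C_pu, hu, one_smul, map_zero] at this

theorem nil_pu (z w : B) (a : A) (u : B) :
    nil qB pu C z w (pu a u) =
      pu a (polar qB z u • w - polar qB w u • z - (qB w * polar qB z u) • z) := by
  rw [nil_apply, T.C_pu, T.C_pu, polar_comm (⇑qB) u z, polar_comm (⇑qB) u w]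
  simp only [map_sub, map_smul, LinearMap.smul_apply, smul_smul]

omit T in
theorem eichB_mem (hB : (polarBilin qB).Nondegenerate) (h5 : 5 ≤ finrank F B) (z w : B) :
    eich qB z w ∈ commutator (orth qB) :=
  eich_mem_commutator hB h5 z w

theorem eichA_mem (u y : A) : eich qA u y ∈ commutator (orth qA) := by
  refine eichGroup_le_commutator T.hA ?_ (eich_mem_eichGroup u y)
  rcases T.big with h | h
  · exact Or.inl (by omega)
  · refine Or.inl fun h2 => T.two ?_
    classical
    haveI := Fintype.ofFinite F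
    rw [Nat.card_eq_fintype_card] at h2
    by_contra hne
    obtain ⟨p, hp⟩ := CharP.exists F
    obtain ⟨n, hpp, hn⟩ := FiniteField.card F p
    rw [h2] at hn
    have hdvd : p ∣ 2 := hn ▸ dvd_pow_self p n.2.ne'
    have hp2 : p = 2 := ((Nat.dvd_prime Nat.prime_two).1 hdvd).resolve_left hpp.ne_one
    subst hp2
    exact hne (CharP.cast_eq_zero F 2)

theorem exists_right {h : orth qB} (hh : h ∈ commutator (orth qB)) :
    ∃ k ∈ M, ∀ a w, (k : V ≃ₗ[F] V) (pu a w) = pu a ((h : B ≃ₗ[F] B) w) := by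
  obtain ⟨k, hk, hkv⟩ := T.tens 1 (one_mem _) h hh
  exact ⟨k, hk, fun a w => by rw [hkv]; rfl⟩

theorem exists_left {g : orth qA} (hg : g ∈ commutator (orth qA)) :
    ∃ k ∈ M, ∀ a w, (k : V ≃ₗ[F] V) (pu a w) = pu ((g : A ≃ₗ[F] A) a) w := by
  obtain ⟨k, hk, hkv⟩ := T.tens g hg 1 (one_mem _)
  exact ⟨k, hk, fun a w => by rw [hkv]; rfl⟩

/-- The root elements of the second factor. -/
theorem exists_rt {z w : B} (hz : qB z = 0) (hzw : polar qB z w = 0) :
    ∃ k ∈ M, Pure pu k ∧ ∀ v, (k : V ≃ₗ[F] V) v = v + nil qB pu C z w v := by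
  obtain ⟨k, hk, hkv⟩ := T.exists_right (TO.eichB_mem T.hB T.five z w)
  refine ⟨k, hk, ⟨LinearMap.id, ((eich qB z w : orth qB) : B ≃ₗ[F] B).toLinearMap, hkv⟩, fun v => ?_⟩
  have key : ((k : V ≃ₗ[F] V).toLinearMap) = LinearMap.id + nil qB pu C z w := by
    refine T.eq_of_pure fun a u => ?_
    rw [LinearEquiv.coe_coe, hkv, LinearMap.add_apply, LinearMap.id_apply, T.nil_pu, eich_apply hz hzw]
    simp only [map_add, map_sub, map_smul]
    abel
  exact LinearMap.congr_fun key v

end TO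

/-- A frame of a totally singular line. -/
structure Ln (qB : QuadraticForm F B) (z η z' η' : B) : Prop where
  hp : HypPair qB z z'
  hq : HypPair qB η η'
  zη : polar qB z η = 0
  zη' : polar qB z η' = 0
  z'η : polar qB z' η = 0
  z'η' : polar qB z' η' = 0

theorem Ln.symm {z η z' η' : B} (h : Ln qB z η z' η') : Ln qB η z η' z' :=
  ⟨h.hq, h.hp, by rw [polar_comm]; exact h.zη, by rw [polar_comm]; exact h.z'η,
    by rw [polar_comm]; exact h.zη', by rw [polar_comm]; exact h.z'η'⟩

/-- A line can be completed to a frame. -/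
theorem exists_ln (hB : (polarBilin qB).Nondegenerate) {z η : B} (hz : qB z = 0) (hη : qB η = 0)
    (hzη : polar qB z η = 0) (hz0 : z ≠ 0) (hind : η ∉ Submodule.span F {z}) :
    ∃ z' η', Ln qB z η z' η' := by
  obtain ⟨z₁, h1, h2⟩ := exists_polar_pair hB hz0 hind 1 0
  set z' := z₁ + (-qB z₁) • z with hz'
  have hp : HypPair qB z z' := hypPair_of_polar hz h1
  have hz'η : polar qB η z' = 0 := by
    rw [hz', polar_add_right, polar_smul_right, h2, polar_comm (⇑qB) η z, hzη, smul_zero, add_zero]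
  obtain ⟨η₁, h3, h4⟩ := exists_polar_pair hB hz0 hind 0 1
  set η₂ := η₁ - polar qB z' η₁ • z with hη₂
  have h5 : polar qB η η₂ = 1 := by
    rw [hη₂, polar_sub_right, polar_smul_right, h4, polar_comm (⇑qB) η z, hzη, smul_zero, sub_zero]
  refine ⟨z', η₂ + (-qB η₂) • η, hp, hypPair_of_polar hη h5, hzη, ?_, ?_, ?_⟩
  · rw [hη₂]
    simp [polar_add_right, polar_sub_right, polar_smul_right, h3, polar_self', hz, hzη]
  · rw [polar_comm]; exact hz'η
  · rw [hη₂]
    simp [polar_add_right, polar_sub_right, polar_smul_right, polar_comm (⇑qB) z' z, hp.pair,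
      polar_comm (⇑qB) z' η, hz'η]

/-- The vectors orthogonal to all of `A ⊗ ⟨z, η⟩`. -/
def Perp2 (C : B →ₗ[F] V →ₗ[F] A) (z η : B) (v : V) : Prop := C z v = 0 ∧ C η v = 0

/-- The vectors of `A ⊗ ⟨z, η⟩`. -/
def In2 (pu : A →ₗ[F] B →ₗ[F] V) (z η : B) (v : V) : Prop := ∃ a b : A, v = pu a z + pu b η

theorem In2.add {z η : B} {v v' : V} (h : In2 pu z η v) (h' : In2 pu z η v') : In2 pu z η (v + v') := by
  obtain ⟨a, b, rfl⟩ := h
  obtain ⟨a', b', rfl⟩ := h'
  exact ⟨a + a', b + b', by simp only [map_add, LinearMap.add_apply]; abel⟩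

theorem In2.swap {z η : B} {v : V} (h : In2 pu z η v) : In2 pu η z v := by
  obtain ⟨a, b, rfl⟩ := h
  exact ⟨b, a, add_comm _ _⟩

namespace TO

variable (T : TO Q qA qB M pu C)
include T

theorem perp2_of_in2 {z η z' η' : B} (L : Ln qB z η z' η') {v : V} (h : In2 pu z η v) : Perp2 C z η v := by
  obtain ⟨a, b, rfl⟩ := h
  constructor <;>
    simp [T.C_pu, polar_self', L.hp.left, L.hq.left, L.zη, polar_comm (⇑qB) η z]

/-- Decomposition along a frame. -/
theorem perp2_rest {z η z' η' : B} (L : Ln qB z η z' η') (v : V) :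
    Perp2 C z η (v - pu (C z v) z' - pu (C η v) η') := by
  constructor <;>
    simp [T.C_pu, polar_comm (⇑qB) z' z, L.hp.pair, polar_comm (⇑qB) η' z, L.zη',
      L.z'η, polar_comm (⇑qB) η' η, L.hq.pair]

theorem perp2_iff {z η : B} {v : V} :
    Perp2 C z η v ↔ ∀ u, In2 pu z η u → polar Q v u = 0 := by
  constructor
  · rintro ⟨h1, h2⟩ u ⟨a, b, rfl⟩
    rw [polar_add_right, ← T.adj, ← T.adj, h1, h2, polar_zero_left, polar_zero_left, add_zero]
  · intro h
    refine ⟨T.Aext fun a => ?_, T.Aext fun a => ?_⟩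
    · rw [polar_zero_left, T.adj]
      exact h _ ⟨a, 0, by simp⟩
    · rw [polar_zero_left, T.adj]
      exact h _ ⟨0, a, by simp⟩

/-- An element carrying one space `A ⊗ ⟨z, η⟩` onto another carries perpendiculars to perpendiculars. -/
theorem perp2_map {z η z₁ η₁ : B} {y : orth Q}
    (hy : ∀ v, In2 pu z η v ↔ In2 pu z₁ η₁ ((y : V ≃ₗ[F] V) v)) {v : V} :
    Perp2 C z η v ↔ Perp2 C z₁ η₁ ((y : V ≃ₗ[F] V) v) := by
  rw [T.perp2_iff, T.perp2_iff]
  constructor
  · intro h u hu
    obtain ⟨u₀, rfl⟩ := (y : V ≃ₗ[F] V).surjective u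
    rw [orth_polar]
    exact h _ ((hy _).2 hu)
  · intro h u hu
    rw [← orth_polar y]
    exact h _ ((hy _).1 hu)

end TO

end Cfsg.Agent.H50.TensorO
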