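import Cfsg.Agent.H50.TensorO.Pairing

/-!
A group containing one layer contains a full root group, hence the whole commutator group.
-/

set_option autoImplicit false
set_option linter.unusedSectionVars false

namespace Cfsg.Agent.H50.TensorO

open QuadraticMap hiding sq
open Module Cfsg.Agent.H5

variable {F : Type*} [Field F] [Finite F]
  {V : Type*} [AddCommGroup V] [Module F V] [FiniteDimensional F V] [Finite V]
  {A : Type*} [AddCommGroup A] [Module F A] [FiniteDimensional F A] [Finite A]
  {B : Type*} [AddCommGroup B] [Module F B] [FiniteDimensional F B] [Finite B]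
  {Q : QuadraticForm F V} {qA : QuadraticForm F A} {qB : QuadraticForm F B} {M : Subgroup (orth Q)}
  {pu : A →ₗ[F] B →ₗ[F] V} {C : B →ₗ[F] V →ₗ[F] A}

/-- The layer of `z` given by an endomorphism lies in the group. -/
def Lay (M : Subgroup (orth Q)) (pu : A →ₗ[F] B →ₗ[F] V) (C : B →ₗ[F] V →ₗ[F] A) (z : B) (G : A →ₗ[F] A) : Prop :=
  ∃ k ∈ M, ∀ v, (k : V ≃ₗ[F] V) v = v + pu (G (C z v)) z

/-- The endomorphism `x ↦ ⟨u, x⟩ y - ⟨y, x⟩ u`. -/
def rootMap (qA : QuadraticForm F A) (u y : A) : A →ₗ[F] A :=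
  (polarBilin qA u).smulRight y - (polarBilin qA y).smulRight u

theorem rootMap_apply (u y x : A) : rootMap qA u y x = polar qA u x • y - polar qA y x • u := by
  simp [rootMap]

/-- The Eichler word exchanging the two points of a pair and reflecting the complement. -/
noncomputable def swapWord (qA : QuadraticForm F A) (u v s : A) : orth qA :=
  eich qA u s * eich qA v ((qA s)⁻¹ • s) * eich qA u s

theorem swapWord_apply {u v s : A} (h : HypPair qA u v) (hsu : polar qA u s = 0) (hsv : polar qA v s = 0)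
    (hs : qA s ≠ 0) :
    (swapWord qA u v s : A ≃ₗ[F] A) u = -(qA s)⁻¹ • v ∧ (swapWord qA u v s : A ≃ₗ[F] A) v = -qA s • u ∧
      ∀ y, polar qA u y = 0 → polar qA v y = 0 →
        (swapWord qA u v s : A ≃ₗ[F] A) y = (refl qA s : A ≃ₗ[F] A) y := by
  set q := qA s with hq
  have hsu' : polar qA s u = 0 := by rw [polar_comm]; exact hsu
  have hsv' : polar qA s v = 0 := by rw [polar_comm]; exact hsv
  have hvu : polar qA v u = 1 := by rw [polar_comm]; exact h.pair
  have ht : polar qA v (q⁻¹ • s) = 0 := by rw [polar_smul_right, hsv, smul_zero]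
  have huu : polar qA u u = 0 := by rw [polar_self', h.left, mul_zero]
  have hvv : polar qA v v = 0 := by rw [polar_self', h.right, mul_zero]
  have hss : polar qA s s = 2 * q := polar_self' qA s
  have hqt : qA (q⁻¹ • s) = q⁻¹ := by rw [QuadraticMap.map_smul, ← hq, smul_eq_mul]; field_simp
  refine ⟨?_, ?_, fun y hy hy' => ?_⟩
  · simp only [swapWord, ← hq, orth_mul_apply, eich_apply h.left hsu, eich_apply h.right ht, hqt, huu, hsu',
      polar_smul_left, polar_add_right, polar_sub_right, polar_smul_right, h.pair, hvu, hsu, hsv, hvv, hss,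
      hsv', map_add, map_sub, map_smul, smul_eq_mul, mul_zero, zero_mul, mul_one]
    match_scalars <;> field_simp <;> ring
  · simp only [swapWord, ← hq, orth_mul_apply, eich_apply h.left hsu, eich_apply h.right ht, hqt, huu, hsu',
      polar_smul_left, polar_add_right, polar_sub_right, polar_smul_right, h.pair, hvu, hsu, hsv, hvv, hss,
      hsv', map_add, map_sub, map_smul, smul_eq_mul, mul_zero, zero_mul, mul_one]
    match_scalars <;> field_simp <;> ring
  · simp only [swapWord, refl_apply, ← hq, orth_mul_apply, eich_apply h.left hsu, eich_apply h.right ht, hqt, huu,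
      hsu', hy, hy', polar_smul_left, polar_add_right, polar_sub_right, polar_smul_right, h.pair, hvu, hsu, hsv,
      hvv, hss, hsv', map_add, map_sub, map_smul, smul_eq_mul, mul_zero, zero_mul, mul_one]
    match_scalars <;> field_simp <;> ring

namespace TO

variable (T : TO Q qA qB M pu C)
include T

theorem lay_add {z : B} (hz : qB z = 0) {G G' : A →ₗ[F] A} (h : Lay M pu C z G) (h' : Lay M pu C z G') :
    Lay M pu C z (G + G') := by
  obtain ⟨k, hk, hkv⟩ := h
  obtain ⟨k', hk', hkv'⟩ := h'
  refine ⟨k * k', M.mul_mem hk hk', fun v => ?_⟩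
  rw [orth_mul_apply, hkv, hkv']
  simp [T.C_pu, polar_self', hz]
  abel

theorem lay_zero (z : B) : Lay M pu C z 0 :=
  ⟨1, M.one_mem, fun v => by rw [LinearMap.zero_apply, map_zero, LinearMap.zero_apply, add_zero]; rfl⟩

theorem lay_cj {z : B} {G : A →ₗ[F] A} (h : Lay M pu C z G) {g : orth qA} (hg : g ∈ commutator (orth qA)) :
    Lay M pu C z (cj g G) := by
  obtain ⟨k, hk, hkv⟩ := h
  obtain ⟨kg, hkg, hkgv⟩ := T.exists_left hg
  refine ⟨kg * k * kg⁻¹, M.mul_mem (M.mul_mem hkg hk) (M.inv_mem hkg), fun v => ?_⟩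
  obtain ⟨v, rfl⟩ := (kg : V ≃ₗ[F] V).surjective v
  rw [orth_mul_apply (kg * k), orth_inv_apply_apply, orth_mul_apply, hkv, map_add, hkgv, T.C_left hkgv,
    cj_apply]

theorem lay_right {z : B} {G : A →ₗ[F] A} (h : Lay M pu C z G) {g : orth qB} (hg : g ∈ commutator (orth qB)) :
    Lay M pu C ((g : B ≃ₗ[F] B) z) G := by
  obtain ⟨k, hk, hkv⟩ := h
  obtain ⟨kg, hkg, hkgv⟩ := T.exists_right hg
  refine ⟨kg * k * kg⁻¹, M.mul_mem (M.mul_mem hkg hk) (M.inv_mem hkg), fun v => ?_⟩
  obtain ⟨v, rfl⟩ := (kg : V ≃ₗ[F] V).surjective v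
  rw [orth_mul_apply (kg * k), orth_inv_apply_apply, orth_mul_apply, hkv, map_add, hkgv, T.C_right hkgv]

theorem lay_move {y x x' : B} (h : HypPair qB y x) (h' : HypPair qB y x') {G : A →ₗ[F] A} (hl : Lay M pu C x G) :
    Lay M pu C x' G := by
  obtain ⟨a, -, ha⟩ := exists_eich_map h h'
  rw [← ha]
  exact T.lay_right hl (TO.eichB_mem T.hB T.five y a)

theorem lay_line {z η z' η' : B} (L : Ln qB z η z' η') {G : A →ₗ[F] A} {c : F} (hc : c ≠ 0)
    (hl : Lay M pu C z G) : Lay M pu C η G ∧ Lay M pu C (c • z) G := by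
  have hy : ∀ d : F, qB (d • z' + η') = 0 := fun d => by
    rw [QuadraticMap.map_add (⇑qB), QuadraticMap.map_smul, L.hp.right, L.hq.right, polar_smul_left, L.z'η']
    simp
  have hη' : polar qB η' η = 1 := by rw [polar_comm]; exact L.hq.pair
  have hz' : polar qB z' z = 1 := by rw [polar_comm]; exact L.hp.pair
  have h1 : Lay M pu C η G := T.lay_move (y := (1 : F) • z' + η')
    ⟨hy 1, L.hp.left, by rw [polar_add_left, one_smul, hz', polar_comm (⇑qB) η' z, L.zη', add_zero]⟩
    ⟨hy 1, L.hq.left, by rw [polar_add_left, one_smul, L.z'η, hη', zero_add]⟩ hl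
  refine ⟨h1, T.lay_move (y := c⁻¹ • z' + η')
    ⟨hy _, L.hq.left, by rw [polar_add_left, polar_smul_left, L.z'η, smul_zero, hη', zero_add]⟩
    ⟨hy _, by rw [QuadraticMap.map_smul, L.hp.left, smul_zero], by
      rw [polar_smul_right, polar_add_left, polar_smul_left, hz', polar_comm (⇑qB) η' z, L.zη', add_zero,
        smul_eq_mul, smul_eq_mul, mul_one, mul_inv_cancel₀ hc]⟩ h1⟩

theorem lay_any {z x : B} (hz0 : z ≠ 0) (hz : qB z = 0) (hx0 : x ≠ 0) (hx : qB x = 0) {G : A →ₗ[F] A}
    (hl : Lay M pu C z G) : Lay M pu C x G := by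
  have hstep : ∀ z x : B, z ≠ 0 → qB z = 0 → qB x = 0 → polar qB z x = 0 → x ∉ Submodule.span F {z} →
      Lay M pu C z G → Lay M pu C x G := by
    intro z x hz0 hz hx hzx hm hl
    obtain ⟨z', x', L⟩ := exists_ln T.hB hz hx hzx hz0 hm
    exact (T.lay_line L one_ne_zero hl).1
  by_cases hzx : polar qB z x = 0
  · by_cases hm : x ∈ Submodule.span F {z}
    · obtain ⟨c, rfl⟩ := Submodule.mem_span_singleton.1 hm
      obtain ⟨η, z', η', L⟩ := T.exists_line_through hz0 hz
      exact (T.lay_line L (fun h => hx0 (by rw [h, zero_smul])) hl).2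
    · exact hstep z x hz0 hz hx hzx hm hl
  · have hpr : HypPair qB z ((polar qB z x)⁻¹ • x) :=
      ⟨hz, by rw [QuadraticMap.map_smul, hx, smul_zero],
        by rw [polar_smul_right, smul_eq_mul, inv_mul_cancel₀ hzx]⟩
    obtain ⟨e, he0, he⟩ := exists_singular (Q := qB.restrict (pperp qB z ((polar qB z x)⁻¹ • x)))
      (restrict_nondegenerate (hpr.inf_perp T.hB))
      (by have := hpr.finrank_pperp T.hB; have := T.five; omega)
    obtain ⟨h1, h2⟩ := mem_pperp.1 e.2
    have he0' : (e : B) ≠ 0 := fun h => he0 (Subtype.ext h)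
    rw [polar_smul_left, smul_eq_mul, mul_eq_zero, inv_eq_zero] at h2
    have hex : polar qB (e : B) x = 0 := by rw [polar_comm]; exact h2.resolve_left hzx
    refine hstep e x he0' he hx hex (fun hm => ?_) (hstep z e hz0 hz he h1 (fun hm => ?_) hl)
    · obtain ⟨t, ht⟩ := Submodule.mem_span_singleton.1 hm
      exact hzx (by rw [← ht, polar_smul_right, h1, smul_zero])
    · obtain ⟨t, ht⟩ := Submodule.mem_span_singleton.1 hm
      rw [← ht, polar_smul_left, smul_eq_mul, mul_eq_zero] at hex
      rw [hex.resolve_right hzx, zero_smul] at ht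
      exact he0' ht.symm

/-- The skew endomorphisms giving layers in the group form an invariant subspace. -/
theorem exists_layer_space :
    ∃ P : Submodule F (A →ₗ[F] A),
      (∀ G, G ∈ P ↔ ∀ z, z ≠ 0 → qB z = 0 → Lay M pu C z G) ∧
      (∀ G ∈ P, ∀ g ∈ commutator (orth qA), cj g G ∈ P) ∧
      (∀ G ∈ P, ∀ x x', polar qA (G x) x' + polar qA x (G x') = 0) ∧
      (¬ Good qB M pu C → P ≠ ⊥) := by
  have hscale : ∀ (c : F) (G : A →ₗ[F] A), (∀ z, z ≠ 0 → qB z = 0 → Lay M pu C z G) →
      ∀ z, z ≠ 0 → qB z = 0 → Lay M pu C z ((c * c) • G) := by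
    intro c G hG z hz0 hz
    by_cases hc : c = 0
    · rw [hc, mul_zero, zero_smul]; exact T.lay_zero z
    obtain ⟨k, hk, hkv⟩ := hG (c • z) (smul_ne_zero hc hz0) (by rw [QuadraticMap.map_smul, hz, smul_zero])
    exact ⟨k, hk, fun v => by rw [hkv]; simp [map_smul, smul_smul]⟩
  let S : AddSubmonoid (A →ₗ[F] A) :=
    { carrier := {G | ∀ z, z ≠ 0 → qB z = 0 → Lay M pu C z G}
      add_mem' := fun h h' z hz0 hz => T.lay_add hz (h z hz0 hz) (h' z hz0 hz)
      zero_mem' := fun z _ _ => T.lay_zero z }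
  have hneg : ∀ G ∈ S, -G ∈ S := by
    intro G hG z hz0 hz
    obtain ⟨k, hk, hkv⟩ := hG z hz0 hz
    refine ⟨k⁻¹, M.inv_mem hk, fun v => (k : V ≃ₗ[F] V).injective ?_⟩
    rw [orth_apply_inv_apply, hkv]
    simp [T.C_pu, polar_self', hz]
  refine ⟨{ S with smul_mem' := fun c G hG => ?_ }, fun G => Iff.rfl, fun G hG g hg z hz0 hz => T.lay_cj (hG z hz0 hz) hg,
    fun G hG x x' => ?_, fun hng => ?_⟩
  · set d := (2 : F)⁻¹ with hd
    have h2 : (2 : F) * d = 1 := mul_inv_cancel₀ T.two
    have e : c • G = (((c + 1) * d) * ((c + 1) * d)) • G + -((((c - 1) * d) * ((c - 1) * d)) • G) := by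
      rw [← neg_smul, ← add_smul]
      congr 1
      linear_combination -(c * (2 * d + 1)) * h2
    rw [e]
    exact S.add_mem (hscale _ G hG) (hneg _ (hscale _ G hG))
  · obtain ⟨z, hz0, hz⟩ := exists_singular T.hB (by have := T.five; omega)
    obtain ⟨z', hzz'⟩ := exists_hypPair T.hB hz0 hz
    obtain ⟨k, -, hkv⟩ := hG z hz0 hz
    have h := orth_polar k (pu x z') (pu x' z')
    rw [hkv, hkv] at h
    simp only [T.C_pu, polar_comm (⇑qB) z' z, hzz'.pair, one_smul, polar_add_left, polar_add_right, T.form,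
      polar_self' qB z, hz, polar_self' qB z', hzz'.right, mul_zero, zero_add, add_zero, mul_one] at h
    exact h
  · rw [Good] at hng
    push Not at hng
    obtain ⟨z, hz0, hz, G, k, hk, hkv, hG0⟩ := hng
    intro hbot
    refine hG0 ((Submodule.mem_bot F).1 (hbot ▸ ?_))
    exact fun x hx0 hx => T.lay_any hz0 hz hx0 hx ⟨k, hk, hkv⟩

/-- A nonzero space of layers contains all root maps. -/
theorem rootMap_mem {P : Submodule F (A →ₗ[F] A)}
    (hcj : ∀ G ∈ P, ∀ g ∈ commutator (orth qA), cj g G ∈ P)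
    (hskew : ∀ G ∈ P, ∀ x x', polar qA (G x) x' + polar qA x (G x') = 0) (hne : P ≠ ⊥)
    (h4 : finrank F A = 4 → ∀ u y : A, qA u = 0 → qA y = 0 → polar qA u y = 0 → u ≠ 0 →
      y ∈ Submodule.span F {u})
    {u v : A} (h : HypPair qA u v) {y : A} (hyu : polar qA u y = 0) (hyv : polar qA v y = 0) :
    rootMap qA u y ∈ P := by
  obtain ⟨R, hRP, hR0, hRfix⟩ := exists_fixed_mod (qA := qA) h.left ⊥ P bot_le
    (by obtain ⟨R, hR, hR0⟩ := Submodule.exists_mem_ne_zero_of_ne_bot hne
        exact ⟨R, hR, fun h => hR0 ((Submodule.mem_bot F).1 h)⟩)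
    (fun y _ R hR => by rw [(Submodule.mem_bot F).1 hR, map_zero])
    (fun y _ R hR => hcj R hR _ (T.eichA_mem u y))
  have hfix : ∀ y, polar qA u y = 0 → ∀ x,
      R (((eich qA u y : orth qA) : A ≃ₗ[F] A) x) = ((eich qA u y : orth qA) : A ≃ₗ[F] A) (R x) :=
    fun y hy x => (cj_eq_iff _).1 (sub_eq_zero.1 ((Submodule.mem_bot F).1 (hRfix y hy))) x
  have hlin : ∀ y, polar qA u y = 0 → ∀ x,
      R (polar qA u x • y - polar qA y x • u) = polar qA u (R x) • y - polar qA y (R x) • u := by
    intro y hy x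
    have h1 := hfix y hy x
    have hy' : polar qA u (-y) = 0 := by rw [polar_neg_right, hy, neg_zero]
    have h2 := hfix (-y) hy' x
    rw [eich_apply h.left hy, eich_apply h.left hy] at h1
    rw [eich_apply h.left hy', eich_apply h.left hy', QuadraticMap.map_neg, polar_neg_left, polar_neg_left] at h2
    simp only [map_add, map_sub, map_smul, map_neg, smul_neg, neg_smul] at h1 h2 ⊢
    refine smul_right_injective A T.two ?_
    simp only [two_smul]
    linear_combination (norm := module) h1 - h2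
  obtain ⟨α, hRu, hαv, -, hRy⟩ := shape_of_commute T.hA h hlin T.three
  obtain ⟨y₀, hy₀, hy₀n⟩ := exists_anisotropic (h.inf_perp T.hA)
    (by have := h.finrank_pperp T.hA; have := T.three; omega)
  obtain ⟨hy₀u, hy₀v⟩ := mem_pperp.1 hy₀
  have hα : α = 0 := by
    have h1 := hskew R hRP y₀ y₀
    rw [hRy y₀ hy₀u hy₀v, polar_sub_left, polar_sub_right, polar_smul_left, polar_smul_left, polar_smul_right,
      polar_smul_right, hy₀u, polar_comm (⇑qA) y₀ u, hy₀u, polar_self'] at h1
    simp only [smul_zero, sub_zero, smul_eq_mul] at h1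
    have h1' : ((2 : F) * 2 * qA y₀) * α = 0 := by linear_combination h1
    exact (mul_eq_zero.1 h1').resolve_left (mul_ne_zero (mul_ne_zero T.two T.two) hy₀n)
  set w₀ := R v with hw₀
  have hw₀v : polar qA v w₀ = 0 := by
    have h1 := hskew R hRP v v
    rw [polar_comm (⇑qA) (R v) v, ← two_mul] at h1
    exact (mul_eq_zero.1 h1).resolve_left T.two
  have hw₀u : polar qA u w₀ = 0 := by rw [hαv, hα]
  have hR : R = rootMap qA u w₀ := by
    refine LinearMap.ext fun x => ?_
    have hd := mem_pperp.1 (h.decomp x)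
    have h1 := hRy _ hd.1 hd.2
    rw [rootMap_apply]
    have e : x = (x - polar qA v x • u - polar qA u x • v) + polar qA v x • u + polar qA u x • v := by abel
    conv_lhs => rw [e, map_add, map_add, map_smul, map_smul, h1, hRu, hα, ← hw₀]
    rw [polar_sub_left, polar_sub_left, polar_smul_left, polar_smul_left, hw₀u, hw₀v, polar_comm (⇑qA) w₀ x]
    simp
    abel
  -- the vectors giving root maps in the space
  set D := pperp qA u v with hDdef
  let Y : Submodule F D :=
    { carrier := {y | rootMap qA u (y : A) ∈ P}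
      add_mem' := fun {a b} ha hb => by
        show rootMap qA u ((a : A) + b) ∈ P
        have e : rootMap qA u ((a : A) + b) = rootMap qA u a + rootMap qA u b := by
          ext x; simp [rootMap_apply, polar_add_left]; module
        rw [e]; exact P.add_mem ha hb
      zero_mem' := by
        show rootMap qA u (0 : A) ∈ P
        have e : rootMap qA u (0 : A) = 0 := by ext x; simp [rootMap_apply]
        rw [e]; exact P.zero_mem
      smul_mem' := fun t a ha => by
        show rootMap qA u (t • (a : A)) ∈ P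
        have e : rootMap qA u (t • (a : A)) = t • rootMap qA u a := by
          ext x; simp [rootMap_apply, polar_smul_left, smul_sub, smul_smul, mul_comm]
        rw [e]; exact P.smul_mem t ha }
  suffices hY : Y = ⊤ by
    exact (show (⟨y, mem_pperp.2 ⟨hyu, hyv⟩⟩ : D) ∈ Y from hY ▸ Submodule.mem_top)
  set qD := qA.restrict D with hqD
  have hDn : (polarBilin qD).Nondegenerate := restrict_nondegenerate (h.inf_perp T.hA)
  have hqval : ∀ a : D, qD a = qA a := fun a => rfl
  have hpol : ∀ a b : D, polar qD a b = polar qA a b := fun a b => by simp [polar, qD]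
  have hrefl : ∀ s : D, qA (s : A) ≠ 0 → ∀ a : D,
      (((refl qD s : orth qD) : D ≃ₗ[F] D) a : A) = (refl qA (s : A) : A ≃ₗ[F] A) a := by
    intro s _ a
    rw [refl_apply, refl_apply, hqval, hpol]
    rfl
  have hinv : ∀ s t : D, qA (s : A) ≠ 0 → qA (t : A) ≠ 0 → ∀ a ∈ Y,
      ((refl qD s * refl qD t : orth qD) : D ≃ₗ[F] D) a ∈ Y := by
    intro s t hs ht a ha
    obtain ⟨hsu, hsv⟩ := mem_pperp.1 s.2
    obtain ⟨htu, htv⟩ := mem_pperp.1 t.2
    obtain ⟨hau, hav⟩ := mem_pperp.1 a.2
    set g := swapWord qA u v s * swapWord qA u v t with hg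
    have hgm : g ∈ commutator (orth qA) :=
      mul_mem (mul_mem (mul_mem (T.eichA_mem _ _) (T.eichA_mem _ _)) (T.eichA_mem _ _))
        (mul_mem (mul_mem (T.eichA_mem _ _) (T.eichA_mem _ _)) (T.eichA_mem _ _))
    obtain ⟨s1, s2, s3⟩ := swapWord_apply h hsu hsv hs
    obtain ⟨t1, -, t3⟩ := swapWord_apply h htu htv ht
    have hra : polar qA u ((refl qA (t : A) : A ≃ₗ[F] A) a) = 0 ∧
        polar qA v ((refl qA (t : A) : A ≃ₗ[F] A) a) = 0 := by
      rw [← hrefl t ht]; exact mem_pperp.1 (Subtype.mem _)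
    have hga : (g : A ≃ₗ[F] A) a = (((refl qD s * refl qD t : orth qD) : D ≃ₗ[F] D) a : A) := by
      rw [hg, orth_mul_apply, orth_mul_apply, t3 _ hau hav, s3 _ hra.1 hra.2, hrefl s hs, hrefl t ht]
    have hgu : (g : A ≃ₗ[F] A) u = (qA (t : A))⁻¹ • qA (s : A) • u := by
      rw [hg, orth_mul_apply, t1, map_smul, s2]
      simp
    show rootMap qA u _ ∈ P
    rw [← hga]
    have e : cj g (rootMap qA u a) = ((qA (t : A))⁻¹ * qA (s : A)) • rootMap qA u ((g : A ≃ₗ[F] A) a) := by
      refine (cj_eq_iff _).2 fun x => ?_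
      have e1 : polar qA ((g : A ≃ₗ[F] A) u) ((g : A ≃ₗ[F] A) x) = polar qA u x := orth_polar g u x
      rw [hgu, smul_smul, polar_smul_left, smul_eq_mul] at e1
      rw [LinearMap.smul_apply, rootMap_apply, rootMap_apply, orth_polar, map_sub, map_smul, map_smul, hgu,
        smul_sub, smul_smul, smul_smul, smul_smul, e1, smul_smul]
      congr 2
      ring
    have hmem := P.smul_mem ((qA (t : A))⁻¹ * qA (s : A))⁻¹ (hcj _ ha g hgm)
    rwa [e, inv_smul_smul₀ (mul_ne_zero (inv_ne_zero ht) hs)] at hmem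
  obtain ⟨b, hbY, hb0⟩ : ∃ b ∈ Y, b ≠ 0 := by
    refine ⟨⟨w₀, mem_pperp.2 ⟨hw₀u, hw₀v⟩⟩, show rootMap qA u w₀ ∈ P from hR ▸ hRP, fun hh => hR0 ?_⟩
    have hw : w₀ = 0 := congrArg Subtype.val hh
    refine (Submodule.mem_bot F).2 ?_
    rw [hR, hw]
    ext x; simp [rootMap_apply]
  have hd := h.finrank_pperp T.hA
  rw [← hDdef] at hd
  have h3 := T.three
  by_cases hd1 : finrank F D = 1
  · rw [eq_top_iff]
    intro x _
    obtain ⟨c, hc⟩ := (finrank_eq_one_iff_of_nonzero' b hb0).1 hd1 x
    exact hc ▸ Y.smul_mem c hbY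
  have haniso2 : finrank F D = 2 → ∀ a : D, qA (a : A) = 0 → a = 0 := by
    intro h2 a ha
    obtain ⟨hau, hav⟩ := mem_pperp.1 a.2
    obtain ⟨c, hc⟩ := Submodule.mem_span_singleton.1 (h4 (by omega) u a h.left ha hau h.ne_zero)
    rw [← hc, polar_smul_right, polar_comm (⇑qA) v u, h.pair, smul_eq_mul, mul_one] at hav
    exact Subtype.ext (by rw [← hc, hav, zero_smul]; rfl)
  have hmove : ∀ y ∈ Y, y ≠ 0 → ∀ s : D, qA (s : A) ≠ 0 → polar qD s y ≠ 0 → s ∈ Y := by
    intro y hy hy0 s hs hsy
    set W := perp qD (Submodule.span F {y}) with hW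
    obtain ⟨t, htW, ht⟩ : ∃ t ∈ W, qA (t : A) ≠ 0 := by
      by_contra hno
      push Not at hno
      have h1 := two_mul_finrank_le hDn (le_perp_of_forall_eq_zero (Q := qD) (W := W) fun x hx => hno x hx)
      have h2 := finrank_perp_add hDn (Submodule.span F {y})
      rw [finrank_span_singleton hy0, ← hW] at h2
      have hD2 : finrank F D = 2 := by omega
      have hW0 : W = ⊥ := eq_bot_iff.2 fun x hx => (Submodule.mem_bot F).2 (haniso2 hD2 x (hno x hx))
      rw [hW0, finrank_bot] at h2
      omega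
    have h1 := hinv s t hs ht y hy
    rw [orth_mul_apply, refl_apply_of_ortho (show polar qD t y = 0 by
      rw [polar_comm]; exact mem_perp_span.1 htW), refl_apply] at h1
    have h2 := Y.smul_mem ((qD s)⁻¹ * polar qD s y)⁻¹ (Y.sub_mem hy h1)
    rw [sub_sub_cancel, smul_smul] at h2
    rwa [inv_mul_cancel₀ (mul_ne_zero (inv_ne_zero (by rw [hqval]; exact hs)) hsy), one_smul] at h2
  obtain ⟨s, hsY, hs⟩ : ∃ s ∈ Y, qA (s : A) ≠ 0 := by
    obtain ⟨x, hx, hxn⟩ := exists_anisotropic (h.inf_perp T.hA) (by have := h.finrank_pperp T.hA; omega)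
    obtain ⟨w, hw⟩ := exists_polar_eq_one hDn hb0
    have hwb : polar qD w b = 1 := by rw [polar_comm, hw]
    set xD : D := ⟨x, hx⟩ with hxD
    by_cases hxb : polar qD xD b = 0
    swap
    · exact ⟨xD, hmove b hbY hb0 _ hxn hxb, hxn⟩
    by_cases hwn : qA (w : A) = 0
    swap
    · exact ⟨w, hmove b hbY hb0 _ hwn (by rw [hwb]; exact one_ne_zero), hwn⟩
    have hsum : qA ((w + xD : D) : A) + qA ((w - xD : D) : A) = 2 * qA x := by
      rw [Submodule.coe_add, Submodule.coe_sub, QuadraticMap.map_add (⇑qA), H5.map_sub', hwn]; ring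
    by_cases hp : qA ((w + xD : D) : A) = 0
    · refine ⟨w - xD, hmove b hbY hb0 _ ?_ (by rw [polar_sub_left, hwb, hxb, sub_zero]; exact one_ne_zero), ?_⟩ <;>
      · intro h0
        rw [hp, h0, add_zero, eq_comm, mul_eq_zero] at hsum
        exact hsum.elim T.two hxn
    · exact ⟨w + xD, hmove b hbY hb0 _ hp (by rw [polar_add_left, hwb, hxb, add_zero]; exact one_ne_zero), hp⟩
  have hs0 : s ≠ 0 := fun h0 => hs (by rw [h0, Submodule.coe_zero, QuadraticMap.map_zero])
  have hani : ∀ x : D, qA (x : A) ≠ 0 → x ∈ Y := by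
    intro x hx
    by_cases hxs : polar qD x s = 0
    swap
    · exact hmove s hsY hs0 x hx hxs
    have hss : polar qD s s ≠ 0 := by rw [polar_self', hqval]; exact mul_ne_zero T.two hs
    by_cases hsum : qA (x : A) + qA (s : A) = 0
    swap
    · have h1 : x + s ∈ Y := hmove s hsY hs0 _ (by
        rw [Submodule.coe_add, QuadraticMap.map_add (⇑qA), ← hpol, hxs, add_zero]; exact hsum)
        (by rw [polar_add_left, hxs, zero_add]; exact hss)
      simpa using Y.sub_mem h1 hsY
    have hd3 : 3 ≤ finrank F D := by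
      by_contra hlt
      have h0 := haniso2 (by omega) (x + s) (by
        rw [Submodule.coe_add, QuadraticMap.map_add (⇑qA), ← hpol, hxs, add_zero]; exact hsum)
      rw [eq_neg_of_add_eq_zero_left h0, polar_neg_left, neg_eq_zero] at hxs
      exact hss hxs
    set W := Submodule.span F ({x, s} : Set D)
    have hWperp : W ⊓ perp qD W = ⊥ := by
      rw [eq_bot_iff]
      intro a ha
      obtain ⟨c, d, rfl⟩ := Submodule.mem_span_pair.1 ha.1
      have h1 := mem_perp.1 ha.2 x (Submodule.subset_span (by simp))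
      have h2 := mem_perp.1 ha.2 s (Submodule.subset_span (by simp))
      rw [polar_add_right, polar_smul_right, polar_smul_right, polar_self', hqval, hxs, smul_zero, add_zero,
        smul_eq_mul, mul_eq_zero] at h1
      rw [polar_add_right, polar_smul_right, polar_smul_right, polar_comm (⇑qD) s x, hxs, smul_zero, zero_add,
        smul_eq_mul, mul_eq_zero] at h2
      rw [h1.resolve_right (mul_ne_zero T.two hx), h2.resolve_right hss, zero_smul, zero_smul, add_zero]
      exact zero_mem _
    have hWc : perp qD W ⊓ perp qD (perp qD W) = ⊥ := by rw [perp_perp hDn, inf_comm, hWperp]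
    have hWd : 0 < finrank F (perp qD W) := by
      have h1 := finrank_perp_add hDn W
      classical
      have h2 : finrank F W ≤ 2 := (finrank_span_le_card (R := F) ({x, s} : Set D)).trans (by
        simp only [Set.toFinset_insert, Set.toFinset_singleton]; exact Finset.card_le_two)
      omega
    obtain ⟨w, hw, hwn⟩ := exists_anisotropic (Q := qD) hWc hWd
    have hwx := mem_perp.1 hw x (Submodule.subset_span (by simp))
    have hws := mem_perp.1 hw s (Submodule.subset_span (by simp))
    have hm : ∀ w : D, qD w ≠ 0 → polar qD x w = 0 → polar qD s w = 0 → x + s + w ∈ Y := by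
      intro w hwn hwx hws
      refine hmove s hsY hs0 _ ?_ ?_
      · rw [← hqval, QuadraticMap.map_add (⇑qD), QuadraticMap.map_add (⇑qD), hxs, polar_add_left, hwx, hws,
          hqval, hqval, add_zero, add_zero, add_zero, hsum, zero_add]
        exact hwn
      · rw [polar_add_left, polar_add_left, hxs, polar_comm (⇑qD) w s, hws, zero_add, add_zero]
        exact hss
    have h1 := hm w hwn hwx hws
    have h2 := hm (-w) (by rw [QuadraticMap.map_neg]; exact hwn) (by rw [polar_neg_right, hwx, neg_zero])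
      (by rw [polar_neg_right, hws, neg_zero])
    have h3 := Y.smul_mem ((2 : F)⁻¹) (Y.add_mem h1 h2)
    have e : (2 : F)⁻¹ • (x + s + w + (x + s + -w)) = x + s := by
      rw [show x + s + w + (x + s + -w) = (2 : F) • (x + s) by rw [two_smul]; abel, inv_smul_smul₀ T.two]
    rw [e] at h3
    simpa using Y.sub_mem h3 hsY
  rw [eq_top_iff]
  intro x _
  by_cases hx : qA (x : A) = 0
  swap
  · exact hani x hx
  have hsum : qA ((x + s : D) : A) + qA ((x - s : D) : A) = 2 * qA (s : A) := by
    rw [Submodule.coe_add, Submodule.coe_sub, QuadraticMap.map_add (⇑qA), H5.map_sub', hx]; ring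
  by_cases hp : qA ((x + s : D) : A) = 0
  · have h1 : x - s ∈ Y := hani _ fun h0 => by
      rw [hp, h0, add_zero, eq_comm, mul_eq_zero] at hsum
      exact hsum.elim T.two hs
    simpa using Y.add_mem h1 hsY
  · simpa using Y.sub_mem (hani _ hp) hsY

/-- All root maps of a pair in the layers give a full root group. -/
theorem fullRoot_of_layers {P : Submodule F (A →ₗ[F] A)}
    (hP : ∀ G ∈ P, ∀ z, z ≠ 0 → qB z = 0 → Lay M pu C z G) {u v : A} (h : HypPair qA u v)
    (hu : ∀ y, polar qA u y = 0 → polar qA v y = 0 → rootMap qA u y ∈ P)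
    (hv : ∀ y, polar qA u y = 0 → polar qA v y = 0 → rootMap qA v y ∈ P)
    {z : B} (hz0 : z ≠ 0) (hz : qB z = 0) : FullRoot M (pu u z) := by
  set e := pu u z with hedef
  have huu : polar qA u u = 0 := by rw [polar_self', h.left, mul_zero]
  have hzz : polar qB z z = 0 := by rw [polar_self', hz, mul_zero]
  have hvu : polar qA v u = 1 := by rw [polar_comm]; exact h.pair
  have he : Q e = 0 := by
    have := polar_self' Q e
    rw [hedef, T.form, huu, zero_mul] at this
    exact (mul_eq_zero.1 this.symm).resolve_left T.two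
  let S : Submodule F V :=
    { carrier := {a | ∀ t : F, RootIn M e (t • a)}
      add_mem' := fun {a b} ha hb t => by rw [smul_add]; exact (ha t).add (hb t)
      zero_mem' := fun t => by rw [smul_zero]; exact ⟨he, polar_zero_right .., by rw [eich_zero]; exact one_mem _⟩
      smul_mem' := fun c a ha t => by rw [smul_smul]; exact ha _ }
  -- conjugation by a layer
  have hconj : ∀ (ζ : B) (G : A →ₗ[F] A), ζ ≠ 0 → qB ζ = 0 → G ∈ P → polar qB z ζ • G u = 0 →
      ∀ (x : A) (w : B), pu x w ∈ S → polar qB w ζ • pu (G x) ζ ∈ S := by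
    intro ζ G hζ0 hζ hG hGu x w hxw t
    obtain ⟨k, hk, hkv⟩ := hP G hG ζ hζ0 hζ
    have hke : (k : V ≃ₗ[F] V) e = e := by
      rw [hkv, hedef, T.C_pu, map_smul, hGu, map_zero, LinearMap.zero_apply, add_zero]
    have hkx : (k : V ≃ₗ[F] V) (t • pu x w) = t • pu x w + t • polar qB w ζ • pu (G x) ζ := by
      rw [map_smul, hkv, T.C_pu, map_smul, map_smul, LinearMap.smul_apply, smul_add]
    have h1 := (RootIn.conj hk (hxw t)).sub (show RootIn M ((k : V ≃ₗ[F] V) e) (t • pu x w) by
      rw [hke]; exact hxw t)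
    rw [hke, hkx, add_sub_cancel_left] at h1
    exact h1
  have hbase : ∀ y, polar qA u y = 0 → polar qA v y = 0 → pu y z ∈ S := by
    intro y hy hy' t
    obtain ⟨k, hk, hkv⟩ := hP _ (hu (t • y) (by rw [polar_smul_right, hy, smul_zero])
      (by rw [polar_smul_right, hy', smul_zero])) z hz0 hz
    have hp : polar Q e (t • pu y z) = 0 := by rw [polar_smul_right, hedef, T.form, hy, zero_mul, smul_zero]
    have hq : Q (t • pu y z) = 0 := by
      have := polar_self' Q (pu y z)
      rw [T.form, hzz, mul_zero] at this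
      rw [QuadraticMap.map_smul, (mul_eq_zero.1 this.symm).resolve_left T.two, smul_zero]
    refine ⟨he, hp, ?_⟩
    have : eich Q e (t • pu y z) = k := orth_ext fun w => by
      rw [eich_apply he hp, hkv, hq, polar_smul_left, hedef, T.adj', T.adj', rootMap_apply, polar_smul_left,
        zero_mul, zero_smul, sub_zero]
      simp only [map_sub, map_smul, LinearMap.sub_apply, LinearMap.smul_apply, smul_eq_mul, smul_smul]
      module
    rw [this]; exact hk
  obtain ⟨y₀, hy₀, hy₀n⟩ := exists_anisotropic (h.inf_perp T.hA)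
    (by have := h.finrank_pperp T.hA; have := T.three; omega)
  obtain ⟨hy₀u, hy₀v⟩ := mem_pperp.1 hy₀
  have hy₀0 : (2 : F) * qA y₀ ≠ 0 := mul_ne_zero T.two hy₀n
  obtain ⟨z', hzz'⟩ := exists_hypPair T.hB hz0 hz
  -- spanning the perpendicular of `z`
  have hperp : ∀ W : Submodule F B, (∀ ζ, qB ζ = 0 → polar qB z ζ = 0 → ζ ∉ Submodule.span F {z} → ζ ∈ W) →
      ∀ w, polar qB z w = 0 → w ∈ W := by
    intro W hW w hw
    have htop := eq_top_of_singular (q := qB.restrict (pperp qB z z')) (restrict_nondegenerate (hzz'.inf_perp T.hB))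
      (by have := hzz'.finrank_pperp T.hB; have := T.five; omega) (S := W.comap (pperp qB z z').subtype)
      (fun x hx => by
        by_cases hx0 : (x : B) = 0
        · show (x : B) ∈ W
          rw [hx0]; exact zero_mem _
        refine hW x hx (mem_pperp.1 x.2).1 fun hm => hx0 ?_
        obtain ⟨c, hc⟩ := Submodule.mem_span_singleton.1 hm
        have h' := (mem_pperp.1 x.2).2
        rw [← hc, polar_smul_right, polar_comm (⇑qB) z' z, hzz'.pair, smul_eq_mul, mul_one] at h'
        rw [← hc, h', zero_smul])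
    have hin : ∀ x ∈ pperp qB z z', x ∈ W := fun x hx =>
      (show (⟨x, hx⟩ : pperp qB z z') ∈ W.comap (pperp qB z z').subtype from htop ▸ Submodule.mem_top)
    obtain ⟨η, z'', η', L⟩ := T.exists_line_through hz0 hz
    have hzW : z ∈ W := by
      have hη : η ∉ Submodule.span F {z} := fun hm => by
        obtain ⟨c, hc⟩ := Submodule.mem_span_singleton.1 hm
        have := L.hq.pair
        rw [← hc, polar_smul_left, L.zη', smul_zero] at this
        exact zero_ne_one this
      have h1 := hW (z + η) (by rw [QuadraticMap.map_add (⇑qB), hz, L.hq.left, L.zη]; simp)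
        (by rw [polar_add_right, hzz, L.zη, add_zero]) (fun hm => hη (by
          simpa using Submodule.sub_mem _ hm (Submodule.mem_span_singleton_self z)))
      have h2 := hW η L.hq.left L.zη hη
      simpa using W.sub_mem h1 h2
    have := W.add_mem (hin _ (hzz'.decomp w)) (W.smul_mem (polar qB z' w) hzW)
    rwa [hw, zero_smul, sub_zero, sub_add_cancel] at this
  -- the first point
  have huB : ∀ w, pu u w ∈ S := by
    have hsing : ∀ ζ, qB ζ = 0 → polar qB z ζ ≠ 0 → pu u ζ ∈ S := by
      intro ζ hζ hzζ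
      have hζ0 : ζ ≠ 0 := fun h0 => hzζ (by rw [h0, polar_zero_right])
      have hGu : polar qB z ζ • rootMap qA u y₀ u = 0 := by
        rw [rootMap_apply, huu, polar_comm (⇑qA) y₀ u, hy₀u]; simp
      have h1 := hconj ζ _ hζ0 hζ (hu y₀ hy₀u hy₀v) hGu y₀ z (hbase y₀ hy₀u hy₀v)
      rw [rootMap_apply, hy₀u, polar_self', zero_smul, zero_sub, map_neg, map_smul, LinearMap.neg_apply,
        LinearMap.smul_apply, smul_neg, smul_smul] at h1
      have h2 := S.smul_mem (polar qB z ζ * (2 * qA y₀))⁻¹ (S.neg_mem h1)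
      rwa [neg_neg, inv_smul_smul₀ (mul_ne_zero hzζ hy₀0)] at h2
    have hpz : pu u z ∈ S := fun t =>
      ⟨he, by rw [← hedef, polar_smul_right, polar_self', he, mul_zero, smul_zero], by
        rw [← hedef]
        have := eich_add_smul (Q := Q) he (a := 0) (polar_zero_right ..) t
        rw [zero_add, eich_zero] at this
        rw [this]; exact one_mem _⟩
    have hz'S : pu u z' ∈ S := hsing z' hzz'.right (by rw [hzz'.pair]; exact one_ne_zero)
    intro w
    have hd := hzz'.decomp w
    obtain ⟨hs1, hs2, hs3⟩ := hzz'.symm.singular_lift (w := w - polar qB z' w • z - polar qB z w • z')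
      (by rw [mem_pperp]; exact (mem_pperp.1 hd).symm)
    have h3 := hsing _ hs1 (by rw [hs3]; exact one_ne_zero)
    simp only [map_add, map_smul] at h3
    set d := w - polar qB z' w • z - polar qB z w • z' with hdd
    have h4 : pu u d ∈ S := by
      have := S.sub_mem h3 (S.add_mem hz'S (S.smul_mem (-qB d) hpz))
      rwa [add_sub_cancel_left] at this
    have e1 : w = d + polar qB z' w • z + polar qB z w • z' := by rw [hdd]; abel
    rw [e1, map_add, map_add, map_smul, map_smul]
    exact S.add_mem (S.add_mem h4 (S.smul_mem _ hpz)) (S.smul_mem _ hz'S)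
  have hDperp : ∀ y, polar qA u y = 0 → polar qA v y = 0 → ∀ w, polar qB z w = 0 → pu y w ∈ S := by
    intro y hy hy' w hw
    refine hperp (S.comap (pu y)) (fun ζ hζ hzζ hm => ?_) w hw
    have hζ0 : ζ ≠ 0 := fun h0 => hm (by rw [h0]; exact zero_mem _)
    obtain ⟨i, hi⟩ := exists_polar_eq_one T.hB hζ0
    have h1 := hconj ζ _ hζ0 hζ (hv y hy hy') (by rw [hzζ, zero_smul]) u i (huB i)
    rw [rootMap_apply, hvu, one_smul, polar_comm (⇑qA) y u, hy, zero_smul, sub_zero, polar_comm (⇑qB) i ζ, hi,
      one_smul] at h1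
    exact h1
  have hvperp : ∀ w, polar qB z w = 0 → pu v w ∈ S := by
    intro w hw
    refine hperp (S.comap (pu v)) (fun ζ hζ hzζ hm => ?_) w hw
    obtain ⟨z₁, ζ', L⟩ := exists_ln T.hB hz hζ hzζ hz0 hm
    have h1 := hconj ζ _ L.hq.ne_zero hζ (hv y₀ hy₀u hy₀v) (by rw [hzζ, zero_smul]) y₀ ζ'
      (hDperp y₀ hy₀u hy₀v ζ' L.zη')
    rw [rootMap_apply, hy₀v, zero_smul, zero_sub, polar_self', map_neg, map_smul, LinearMap.neg_apply,
      LinearMap.smul_apply, polar_comm (⇑qB) ζ' ζ, L.hq.pair, one_smul] at h1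
    have h2 := S.smul_mem (2 * qA y₀)⁻¹ (S.neg_mem h1)
    rwa [neg_neg, inv_smul_smul₀ hy₀0] at h2
  have hDall : ∀ y, polar qA u y = 0 → polar qA v y = 0 → ∀ w, pu y w ∈ S := by
    intro y hy hy' w
    obtain ⟨η, z₁, η', L⟩ := T.exists_line_through hz0 hz
    have hζ : qB (z₁ + η) = 0 := by
      rw [QuadraticMap.map_add (⇑qB), L.hp.right, L.hq.left, L.z'η]; simp
    have hzζ : polar qB z (z₁ + η) = 1 := by rw [polar_add_right, L.hp.pair, L.zη, add_zero]
    have hζ0 : z₁ + η ≠ 0 := fun h0 => by rw [h0, polar_zero_right] at hzζ; exact zero_ne_one hzζ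
    have hGu : polar qB z (z₁ + η) • rootMap qA u y u = 0 := by
      rw [rootMap_apply, huu, polar_comm (⇑qA) y u, hy]; simp
    have h1 := hconj (z₁ + η) _ hζ0 hζ (hu y hy hy') hGu v η' (hvperp η' L.zη')
    rw [rootMap_apply, h.pair, one_smul, polar_comm (⇑qA) y v, hy', zero_smul, sub_zero, polar_add_right,
      polar_comm (⇑qB) η' z₁, L.z'η', polar_comm (⇑qB) η' η, L.hq.pair, zero_add, one_smul] at h1
    have hη : pu y η ∈ S := hDperp y hy hy' η L.zη
    have hz₁ : pu y z₁ ∈ S := by
      have := S.sub_mem h1 hη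
      rwa [map_add, add_sub_cancel_right] at this
    have hrest := hDperp y hy hy' (w - polar qB z w • z₁) (by
      rw [polar_sub_right, polar_smul_right, L.hp.pair, smul_eq_mul, mul_one, sub_self])
    have := S.add_mem hrest (S.smul_mem (polar qB z w) hz₁)
    rwa [← map_smul, ← map_add, sub_add_cancel] at this
  refine ⟨he, fun a ha => ?_⟩
  have hperpS : perp Q S ≤ Submodule.span F {e} := by
    intro m hm
    have hm' : ∀ x w, pu x w ∈ S → polar qA (C w m) x = 0 := fun x w hx => by
      rw [T.adj, polar_comm]; exact mem_perp.1 hm _ hx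
    refine Submodule.mem_span_singleton.2 ⟨polar qA v (C z' m), T.Vext fun w => ?_⟩
    rw [map_smul, hedef, T.C_pu, smul_smul]
    have e1 : C w m = polar qA v (C w m) • u := T.Aext fun x => by
      have hd := mem_pperp.1 (h.decomp x)
      have ex : x = (x - polar qA v x • u - polar qA u x • v) + polar qA v x • u + polar qA u x • v := by abel
      conv_lhs => rw [ex]
      rw [polar_add_right, polar_add_right, polar_smul_right, polar_smul_right, hm' _ _ (hDall _ hd.1 hd.2 w),
        hm' _ _ (huB w), smul_zero, zero_add, zero_add, polar_comm (⇑qA) (C w m) v, polar_smul_left,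
        smul_eq_mul, smul_eq_mul, mul_comm]
    have e2 : polar qA v (C w m) = polar qB z w * polar qA v (C z' m) := by
      have := hm' v (w - polar qB z w • z') (hvperp _ (by
        rw [polar_sub_right, polar_smul_right, hzz'.pair, smul_eq_mul, mul_one, sub_self]))
      rw [map_sub, map_smul, LinearMap.sub_apply, LinearMap.smul_apply, polar_sub_left, polar_smul_left,
        polar_comm (⇑qA) (C w m) v, polar_comm (⇑qA) (C z' m) v, smul_eq_mul, sub_eq_zero] at this
      exact this
    rw [e1, e2, mul_comm]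
  have haS : a ∈ S := by
    rw [← perp_perp T.hQ S]
    exact perp_anti hperpS (mem_perp_span.2 ha)
  have := haS 1
  rw [one_smul] at this
  exact this.2.2

/-- With a layer in the group, the group contains the commutator group. -/
theorem commutator_le_of_not_good (hng : ¬ Good qB M pu C)
    (h4 : finrank F A = 4 → ∀ u y : A, qA u = 0 → qA y = 0 → polar qA u y = 0 → u ≠ 0 →
      y ∈ Submodule.span F {u}) : commutator (orth Q) ≤ M := by
  obtain ⟨P, hP, hcj, hskew, hne⟩ := T.exists_layer_space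
  obtain ⟨u, hu0, hu⟩ := exists_singular T.hA T.three
  obtain ⟨v, h⟩ := exists_hypPair T.hA hu0 hu
  obtain ⟨z, hz0, hz⟩ := exists_singular T.hB (by have := T.five; omega)
  obtain ⟨z', hzz'⟩ := exists_hypPair T.hB hz0 hz
  have hall : ∀ u v : A, HypPair qA u v → ∀ y, polar qA u y = 0 → polar qA v y = 0 → rootMap qA u y ∈ P :=
    fun u v h y hy hy' => T.rootMap_mem hcj hskew (hne hng) h4 h hy hy'
  have h1 := T.fullRoot_of_layers (P := P) (fun G hG => (hP G).1 hG) h (hall u v h)
    (fun y hy hy' => hall v u h.symm y hy' hy) hz0 hz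
  have h2 := T.fullRoot_of_layers (P := P) (fun G hG => (hP G).1 hG) h.symm (hall v u h.symm)
    (fun y hy hy' => hall u v h y hy' hy) hzz'.symm.ne_zero hzz'.right
  refine commutator_le_of_fullRoot T.hQ ?_ h1 h2 ?_
  · have hinj : Function.Injective (pu u) :=
      (injective_iff_map_eq_zero (pu u)).2 fun w hw => (T.pu_eq_zero hw).resolve_left hu0
    have := LinearMap.finrank_le_finrank_of_injective hinj
    have := T.five
    omega
  · rw [T.form, h.pair, hzz'.pair, one_mul]; exact one_ne_zero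

end TO

end Cfsg.Agent.H50.TensorO
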