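import Cfsg.Agent.H50.TensorO.Purity
import Cfsg.Agent.H35.Sections

/-!
Without layers every element of the group is pure: two root elements of the second factor which are not conjugate by
a pure element generate a group with an involution, and this involution is a reflection in a four-space.
-/

set_option autoImplicit false
set_option linter.unusedSectionVars false

namespace Cfsg.Agent.H50.TensorO

open QuadraticMap hiding sq
open Module Cfsg.Agent.H5

section Algebra

/-- An involution in the group generated by two quadratic unipotent elements commutes with both of them. -/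
theorem commute_of_involution {H : Type*} [Group H] {R : Type*} [Ring R] (φ : H →* R) {N N' : R} (hN : N * N = 0)
    (hN' : N' * N' = 0) (h2 : ∀ x : R, x + x = 0 → x = 0) {s e : H} (hs : φ s = 1 + N) (he : φ e = 1 + N') {j : H}
    (hj : j ∈ Subgroup.closure ({s, e} : Set H)) (hjj : j * j = 1) :
    φ j * N = N * φ j ∧ φ j * N' = N' * φ j := by
  set D := N * N' + N' * N with hD
  have e1 : N' * N = D - N * N' := by rw [hD]; abel
  have hDN : N * D = D * N := by
    rw [hD, mul_add, add_mul, ← mul_assoc N N N', hN, zero_mul, zero_add, mul_assoc N' N N, hN, mul_zero,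
      add_zero, mul_assoc]
  have hDN' : N' * D = D * N' := by
    rw [hD, mul_add, add_mul, ← mul_assoc N' N' N, hN', zero_mul, add_zero, mul_assoc N N' N', hN', mul_zero,
      zero_add, mul_assoc]
  have e2 : N * N' * N = D * N := by
    rw [mul_assoc, e1, mul_sub, ← mul_assoc N N N', hN, zero_mul, sub_zero, hDN]
  have e3 : N' * (N * N') = D * N' := by
    rw [← mul_assoc, e1, sub_mul, mul_assoc N N' N', hN', mul_zero, sub_zero]
  let Good' : R → Prop := fun x => Commute x N ∧ Commute x N'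
  have hDc : Good' D := ⟨hDN.symm, hDN'.symm⟩
  let P : H → Prop := fun g => ∃ α β γ δ : R, Good' α ∧ Good' β ∧ Good' γ ∧ Good' δ ∧
    φ g = α + β * N + γ * N' + δ * (N * N') ∧ φ g⁻¹ = α + δ * D - β * N - γ * N' - δ * (N * N')
  have stepS : ∀ (t : ℤ) (x : H), φ x = 1 + t • N → φ x⁻¹ = 1 - t • N → ∀ g, P g → P (g * x) := by
    rintro t x hx hx' g ⟨α, β, γ, δ, hα, hβ, hγ, hδ, hg, hg'⟩
    refine ⟨α + t • (γ * D), β + t • α + t • (δ * D), γ, δ - t • γ,
      ⟨hα.1.add_left ((hγ.1.mul_left hDc.1).smul_left t), hα.2.add_left ((hγ.2.mul_left hDc.2).smul_left t)⟩,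
      ⟨(hβ.1.add_left (hα.1.smul_left t)).add_left ((hδ.1.mul_left hDc.1).smul_left t),
        (hβ.2.add_left (hα.2.smul_left t)).add_left ((hδ.2.mul_left hDc.2).smul_left t)⟩,
      hγ, ⟨hδ.1.sub_left (hγ.1.smul_left t), hδ.2.sub_left (hγ.2.smul_left t)⟩, ?_, ?_⟩
    · rw [map_mul, hg, hx]
      calc (α + β * N + γ * N' + δ * (N * N')) * (1 + t • N)
          = α + β * N + γ * N' + δ * (N * N') +
              t • (α * N + β * (N * N) + γ * (N' * N) + δ * (N * N' * N)) := by (simp only [mul_add, add_mul, mul_sub, sub_mul, smul_add, smul_sub, mul_smul_comm, smul_mul_assoc, mul_zero, zero_mul, smul_zero, mul_one, one_mul, mul_assoc]; try abel)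
        _ = _ := by rw [hN, e1, e2]; (simp only [mul_add, add_mul, mul_sub, sub_mul, smul_add, smul_sub, mul_smul_comm, smul_mul_assoc, mul_zero, zero_mul, smul_zero, mul_one, one_mul, mul_assoc]; try abel)
    · rw [mul_inv_rev, map_mul, hg', hx']
      calc (1 - t • N) * (α + δ * D - β * N - γ * N' - δ * (N * N'))
          = α + δ * D - β * N - γ * N' - δ * (N * N') -
              t • (N * α + N * δ * D - N * β * N - N * γ * N' - N * δ * (N * N')) := by (simp only [mul_add, add_mul, mul_sub, sub_mul, smul_add, smul_sub, mul_smul_comm, smul_mul_assoc, mul_zero, zero_mul, smul_zero, mul_one, one_mul, mul_assoc]; try abel)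
        _ = α + δ * D - β * N - γ * N' - δ * (N * N') -
              t • (α * N + δ * (N * D) - β * (N * N) - γ * (N * N') - δ * (N * N * N')) := by
            rw [← hα.1.eq, ← hβ.1.eq, ← hγ.1.eq, ← hδ.1.eq]; (simp only [mul_add, add_mul, mul_sub, sub_mul, smul_add, smul_sub, mul_smul_comm, smul_mul_assoc, mul_zero, zero_mul, smul_zero, mul_one, one_mul, mul_assoc]; try abel)
        _ = _ := by rw [hN, hDN]; (simp only [mul_add, add_mul, mul_sub, sub_mul, smul_add, smul_sub, mul_smul_comm, smul_mul_assoc, mul_zero, zero_mul, smul_zero, mul_one, one_mul, mul_assoc]; try abel)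
  have stepE : ∀ (t : ℤ) (x : H), φ x = 1 + t • N' → φ x⁻¹ = 1 - t • N' → ∀ g, P g → P (g * x) := by
    rintro t x hx hx' g ⟨α, β, γ, δ, hα, hβ, hγ, hδ, hg, hg'⟩
    refine ⟨α, β, γ + t • α, δ + t • β, hα, hβ,
      ⟨hγ.1.add_left (hα.1.smul_left t), hγ.2.add_left (hα.2.smul_left t)⟩,
      ⟨hδ.1.add_left (hβ.1.smul_left t), hδ.2.add_left (hβ.2.smul_left t)⟩, ?_, ?_⟩
    · rw [map_mul, hg, hx]
      calc (α + β * N + γ * N' + δ * (N * N')) * (1 + t • N')
          = α + β * N + γ * N' + δ * (N * N') +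
              t • (α * N' + β * (N * N') + γ * (N' * N') + δ * N * (N' * N')) := by (simp only [mul_add, add_mul, mul_sub, sub_mul, smul_add, smul_sub, mul_smul_comm, smul_mul_assoc, mul_zero, zero_mul, smul_zero, mul_one, one_mul, mul_assoc]; try abel)
        _ = _ := by rw [hN']; (simp only [mul_add, add_mul, mul_sub, sub_mul, smul_add, smul_sub, mul_smul_comm, smul_mul_assoc, mul_zero, zero_mul, smul_zero, mul_one, one_mul, mul_assoc]; try abel)
    · rw [mul_inv_rev, map_mul, hg', hx']
      calc (1 - t • N') * (α + δ * D - β * N - γ * N' - δ * (N * N'))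
          = α + δ * D - β * N - γ * N' - δ * (N * N') -
              t • (N' * α + N' * δ * D - N' * β * N - N' * γ * N' - N' * δ * (N * N')) := by (simp only [mul_add, add_mul, mul_sub, sub_mul, smul_add, smul_sub, mul_smul_comm, smul_mul_assoc, mul_zero, zero_mul, smul_zero, mul_one, one_mul, mul_assoc]; try abel)
        _ = α + δ * D - β * N - γ * N' - δ * (N * N') -
              t • (α * N' + δ * (N' * D) - β * (N' * N) - γ * (N' * N') - δ * (N' * (N * N'))) := by
            rw [← hα.2.eq, ← hβ.2.eq, ← hγ.2.eq, ← hδ.2.eq]; (simp only [mul_add, add_mul, mul_sub, sub_mul, smul_add, smul_sub, mul_smul_comm, smul_mul_assoc, mul_zero, zero_mul, smul_zero, mul_one, one_mul, mul_assoc]; try abel)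
        _ = _ := by rw [hN', e3, hDN', e1]; (simp only [mul_add, add_mul, mul_sub, sub_mul, smul_add, smul_sub, mul_smul_comm, smul_mul_assoc, mul_zero, zero_mul, smul_zero, mul_one, one_mul, mul_assoc]; try abel)
  have hinv : ∀ (x : H) (n : R), n * n = 0 → φ x = 1 + n → φ x⁻¹ = 1 - n := by
    intro x n hn hx
    have h1 : φ x⁻¹ * (1 + n) = 1 := by rw [← hx, ← map_mul, inv_mul_cancel, map_one]
    have h2 : (1 + n) * (1 - n) = 1 := by
      calc (1 + n) * (1 - n) = 1 - n * n := by noncomm_ring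
        _ = 1 := by rw [hn, sub_zero]
    calc φ x⁻¹ = φ x⁻¹ * ((1 + n) * (1 - n)) := by rw [h2, mul_one]
      _ = 1 - n := by rw [← mul_assoc, h1, one_mul]
  have hs' := hinv s N hN hs
  have he' := hinv e N' hN' he
  have hP : ∀ g ∈ Subgroup.closure ({s, e} : Set H), P g := by
    intro g hg
    induction hg using Subgroup.closure_induction_right with
    | one =>
      exact ⟨1, 0, 0, 0, ⟨Commute.one_left _, Commute.one_left _⟩, ⟨Commute.zero_left _, Commute.zero_left _⟩,
        ⟨Commute.zero_left _, Commute.zero_left _⟩, ⟨Commute.zero_left _, Commute.zero_left _⟩, by simp, by simp⟩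
    | mul_right g _ x hx ih =>
      rcases hx with rfl | rfl
      · exact stepS 1 x (by rw [hs, one_smul]) (by rw [hs', one_smul]) g ih
      · exact stepE 1 x (by rw [he, one_smul]) (by rw [he', one_smul]) g ih
    | mul_inv_cancel g _ x hx ih =>
      rcases hx with rfl | rfl
      · exact stepS (-1) x⁻¹ (by rw [hs', neg_one_smul]; abel)
          (by rw [inv_inv, hs, neg_one_smul]; abel) g ih
      · exact stepE (-1) x⁻¹ (by rw [he', neg_one_smul]; abel)
          (by rw [inv_inv, he, neg_one_smul]; abel) g ih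
  obtain ⟨α, β, γ, δ, hα, hβ, hγ, hδ, hg, hg'⟩ := hP j hj
  rw [inv_eq_of_mul_eq_one_right hjj] at hg'
  have hsum : φ j + φ j = α + α + δ * D := by
    calc φ j + φ j = (α + β * N + γ * N' + δ * (N * N')) + (α + δ * D - β * N - γ * N' - δ * (N * N')) := by
          rw [← hg, ← hg']
      _ = _ := by abel
  constructor <;> rw [← sub_eq_zero] <;> refine h2 _ ?_
  · calc φ j * N - N * φ j + (φ j * N - N * φ j) = (φ j + φ j) * N - N * (φ j + φ j) := by noncomm_ring
      _ = 0 := by rw [hsum, ((hα.1.add_left hα.1).add_left (hδ.1.mul_left hDc.1)).eq, sub_self]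
  · calc φ j * N' - N' * φ j + (φ j * N' - N' * φ j) = (φ j + φ j) * N' - N' * (φ j + φ j) := by noncomm_ring
      _ = 0 := by rw [hsum, ((hα.2.add_left hα.2).add_left (hδ.2.mul_left hDc.2)).eq, sub_self]

end Algebra

variable {F : Type*} [Field F] [Finite F]
  {V : Type*} [AddCommGroup V] [Module F V] [FiniteDimensional F V] [Finite V]
  {A : Type*} [AddCommGroup A] [Module F A] [FiniteDimensional F A] [Finite A]
  {B : Type*} [AddCommGroup B] [Module F B] [FiniteDimensional F B] [Finite B]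
  {Q : QuadraticForm F V} {qA : QuadraticForm F A} {qB : QuadraticForm F B} {M : Subgroup (orth Q)}
  {pu : A →ₗ[F] B →ₗ[F] V} {C : B →ₗ[F] V →ₗ[F] A}

/-- A subspace containing all singular vectors is everything. -/
theorem eq_top_of_singular {W : Type*} [AddCommGroup W] [Module F W] [FiniteDimensional F W] {q : QuadraticForm F W}
    (hq : (polarBilin q).Nondegenerate) (h3 : 3 ≤ finrank F W) {S : Submodule F W} (hS : ∀ x, q x = 0 → x ∈ S) :
    S = ⊤ := by
  obtain ⟨e, he0, he⟩ := exists_singular hq h3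
  obtain ⟨f, hf⟩ := exists_hypPair hq he0 he
  rw [eq_top_iff]
  intro x _
  set w := x - polar q f x • e - polar q e x • f with hw
  have h1 := hS _ (hf.singular_lift (hf.decomp x)).1
  have h2 : w ∈ S := by
    have := S.sub_mem h1 (S.add_mem (hS e hf.left) (S.smul_mem (-q w) (hS f hf.right)))
    rwa [add_sub_cancel_left] at this
  have := S.add_mem (S.add_mem h2 (S.smul_mem (polar q e x) (hS f hf.right))) (S.smul_mem (polar q f x) (hS e hf.left))
  convert this using 1
  rw [hw]; abel

/-- The linear maps given by the elements of the orthogonal group. -/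
def endHom (Q : QuadraticForm F V) : orth Q →* Module.End F V where
  toFun g := ((g : orth Q) : V ≃ₗ[F] V).toLinearMap
  map_one' := rfl
  map_mul' _ _ := rfl

theorem endHom_apply (g : orth Q) (v : V) : endHom Q g v = (g : V ≃ₗ[F] V) v := rfl

namespace TO

variable (T : TO Q qA qB M pu C)
include T

/-- Every singular vector lies on a totally singular line. -/
theorem exists_line_through {z : B} (hz0 : z ≠ 0) (hz : qB z = 0) : ∃ η z' η', Ln qB z η z' η' := by
  obtain ⟨f, hf⟩ := exists_hypPair T.hB hz0 hz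
  obtain ⟨e, he0, he⟩ := exists_singular (Q := qB.restrict (pperp qB z f))
    (restrict_nondegenerate (hf.inf_perp T.hB)) (by have := hf.finrank_pperp T.hB; have := T.five; omega)
  obtain ⟨h1, h2⟩ := mem_pperp.1 e.2
  have he0' : (e : B) ≠ 0 := fun h => he0 (Subtype.ext h)
  refine ⟨e, ?_⟩
  refine exists_ln T.hB hz he h1 hz0 fun hm => ?_
  obtain ⟨t, ht⟩ := Submodule.mem_span_singleton.1 hm
  rw [← ht, polar_smul_right, polar_comm (⇑qB) f z, hf.pair, smul_eq_mul, mul_one] at h2
  rw [h2, zero_smul] at ht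
  exact he0' ht.symm

/-- The root element of a line. -/
theorem exists_root {z η z' η' : B} (L : Ln qB z η z' η') :
    ∃ r ∈ M, Pure pu r ∧ ∀ v, (r : V ≃ₗ[F] V) v = v + (pu (C z v) η - pu (C η v) z) := by
  obtain ⟨r, hr, hrp, -, hrv⟩ := T.exists_rtp (z := z) (u := η) L.hp.left L.zη
  refine ⟨r, hr, hrp.pure, fun v => ?_⟩
  rw [hrv, nil_apply, L.hq.left, zero_smul, sub_zero]

/-- A `p`-group containing a root element consists of pure elements. -/
theorem pure_of_isPGroup (hg : Good qB M pu C) {z η z' η' : B} (L : Ln qB z η z' η') {r : orth Q}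
    (hrv : ∀ v, (r : V ≃ₗ[F] V) v = v + (pu (C z v) η - pu (C η v) z)) (hr : Pure pu r) {p : ℕ} [Fact p.Prime]
    {P : Subgroup (orth Q)} (hPM : P ≤ M) (hrP : r ∈ P) (hP : IsPGroup p P) : ∀ y ∈ P, Pure pu y := by
  let H : Subgroup (orth Q) := { pureMonoid pu with inv_mem' := fun h => Pure.inv h }
  haveI : Finite (orth Q) := by
    refine Finite.of_injective (fun g : orth Q => ⇑(g : V ≃ₗ[F] V)) fun g h e => ?_
    exact orth_ext fun v => congrFun e v
  haveI : Group.IsNilpotent P := hP.isNilpotent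
  by_contra hne
  push Not at hne
  obtain ⟨y₀, hy₀, hy₀'⟩ := hne
  set P₀ : Subgroup P := H.subgroupOf P with hP₀
  have hlt : P₀ < ⊤ := lt_top_iff_ne_top.2 fun h => hy₀' (show y₀ ∈ H from
    Subgroup.mem_subgroupOf.1 (h ▸ Subgroup.mem_top (⟨y₀, hy₀⟩ : P)))
  obtain ⟨y, hyn, hy⟩ := SetLike.exists_of_lt (Group.normalizerCondition_of_isNilpotent P₀ hlt)
  have h1 := (Subgroup.mem_normalizer_iff.1 hyn ⟨r, hrP⟩).1 (Subgroup.mem_subgroupOf.2 (show r ∈ H from hr))
  exact hy (Subgroup.mem_subgroupOf.2 (show (y : orth Q) ∈ H from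
    T.pure_of_conj_root hg L (hPM y.2) hrv (Subgroup.mem_subgroupOf.1 h1)))

/-- Two quadratic elements not generating a `p`-group have an involution in their group. -/
theorem exists_involution {p : ℕ} [Fact p.Prime] [CharP F p] {r e : orth Q}
    (hr : ∀ v, (r : V ≃ₗ[F] V) ((r : V ≃ₗ[F] V) v - v) = (r : V ≃ₗ[F] V) v - v)
    (he : ∀ v, (e : V ≃ₗ[F] V) ((e : V ≃ₗ[F] V) v - v) = (e : V ≃ₗ[F] V) v - v)
    (hnp : ¬ IsPGroup p ↥(Subgroup.closure ({r, e} : Set (orth Q)))) :
    ∃ j ∈ Subgroup.closure ({r, e} : Set (orth Q)), j ≠ 1 ∧ j * j = 1 := by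
  haveI : Finite (orth Q) := by
    refine Finite.of_injective (fun g : orth Q => ⇑(g : V ≃ₗ[F] V)) fun g h e => ?_
    exact orth_ext fun v => congrFun e v
  have hp : p ≠ 2 := by
    rintro rfl
    exact T.two (CharP.cast_eq_zero F 2)
  have hW : ∀ x : V, p • x = 0 := fun x => by
    rw [← Nat.cast_smul_eq_nsmul F, CharP.cast_eq_zero, zero_smul]
  set G := Subgroup.closure ({r, e} : Set (orth Q)) with hG
  let ρ : G →* AddMonoid.End V :=
    { toFun := fun g => (((g : orth Q) : V ≃ₗ[F] V).toLinearMap).toAddMonoidHom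
      map_one' := rfl
      map_mul' := fun _ _ => rfl }
  let a : G := ⟨r, Subgroup.subset_closure (by simp)⟩
  let b : G := ⟨e, Subgroup.subset_closure (by simp)⟩
  have hab : Subgroup.closure ({a, b} : Set G) = ⊤ := by
    have hpre : (({a, b} : Set G)) = ((↑) : G → orth Q) ⁻¹' {r, e} := by
      ext x
      simp only [Set.mem_insert_iff, Set.mem_singleton_iff, Set.mem_preimage, Subtype.ext_iff]
      exact Iff.rfl
    rw [hpre]
    exact Subgroup.closure_closure_coe_preimage
  have hnp' : ¬ ∀ h : G, ∃ k : ℕ, ρ (h ^ p ^ k) = 1 := fun h => hnp fun g => by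
    obtain ⟨k, hk⟩ := h g
    exact ⟨k, Subtype.ext (orth_ext fun v => DFunLike.congr_fun hk v)⟩
  obtain ⟨a', b', W₁, W₂, v, w, hpair⟩ := H35.exists_natural_pair hp hW ρ a b hab hr he hnp'
  obtain ⟨c, φ, hφ, -, -, -⟩ := H35.natural_pair_coord hpair
  obtain ⟨g, hgv⟩ := hφ (-1)
  have h2 : orderOf (-1 : Matrix.SpecialLinearGroup (Fin 2) (ZMod p)) = 2 := by
    refine orderOf_eq_prime (by simp) fun h => ?_
    have h1 := congrArg (fun m : Matrix.SpecialLinearGroup (Fin 2) (ZMod p) => (m : Matrix (Fin 2) (Fin 2) (ZMod p)) 0 0) h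
    simp at h1
    haveI : Fact (2 < p) := ⟨lt_of_le_of_ne (Fact.out : p.Prime).two_le hp.symm⟩
    exact ZMod.neg_one_ne_one h1
  set g' : orth Q := ((g : G) : orth Q) with hg'
  have hord : 2 ∣ orderOf g' := by
    rw [hg', Subgroup.orderOf_coe, Subgroup.orderOf_coe, ← h2, ← hgv]
    exact orderOf_map_dvd φ g
  have hj := orderOf_pow_orderOf_div (orderOf_pos g').ne' hord
  refine ⟨g' ^ (orderOf g' / 2), pow_mem (g : G).2 _, fun h => ?_, ?_⟩
  · rw [h, orderOf_one] at hj
    omega
  · have := pow_orderOf_eq_one (g' ^ (orderOf g' / 2))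
    rwa [hj, sq] at this

/-- The shape of an involution commuting with the root element of a line. -/
theorem involution_shape (hg : Good qB M pu C) {z η z' η' : B} (L : Ln qB z η z' η') {r e : orth Q}
    (hr : r ∈ M) (he : e ∈ M) (hrv : ∀ v, (r : V ≃ₗ[F] V) v = v + (pu (C z v) η - pu (C η v) z))
    (hev : ∀ v, (e : V ≃ₗ[F] V) ((e : V ≃ₗ[F] V) v - v) = (e : V ≃ₗ[F] V) v - v) {j : orth Q}
    (hj : j ∈ Subgroup.closure ({r, e} : Set (orth Q))) (hj1 : j ≠ 1) (hjj : j * j = 1) :
    ∃ K : B →ₗ[F] B, (∀ a w, (j : V ≃ₗ[F] V) (pu a w) = pu a (K w)) ∧ K z = -z ∧ K η = -η ∧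
      ∀ w, polar qB z w = 0 → polar qB η w = 0 → ∃ s t : F, K w - w = s • z + t • η := by
  have hjM : j ∈ M := (Subgroup.closure_le M).2 (Set.insert_subset_iff.2 ⟨hr, Set.singleton_subset_iff.2 he⟩) hj
  have hηz : polar qB η z = 0 := by rw [polar_comm]; exact L.zη
  have hzz : polar qB z z = 0 := by rw [polar_self', L.hp.left, mul_zero]
  have hηη : polar qB η η = 0 := by rw [polar_self', L.hq.left, mul_zero]
  let N : Module.End F V := (pu.flip η).comp (C z) - (pu.flip z).comp (C η)
  have hN : ∀ v, N v = pu (C z v) η - pu (C η v) z := fun v => by simp [N]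
  let N' : Module.End F V := endHom Q e - 1
  have hN' : ∀ v, N' v = (e : V ≃ₗ[F] V) v - v := fun v => by simp [N', endHom_apply]
  have hNN : N * N = 0 := LinearMap.ext fun v => by
    rw [Module.End.mul_apply, hN, hN]
    simp [T.C_pu, hzz, hηη, hηz, L.zη]
  have hNN' : N' * N' = 0 := LinearMap.ext fun v => by
    rw [Module.End.mul_apply, hN', hN', hev, sub_self]; simp
  have h2 : ∀ x : Module.End F V, x + x = 0 → x = 0 := fun x hx => by
    have h : (2 : F) • x = 0 := by rw [two_smul, hx]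
    exact (smul_eq_zero.1 h).resolve_left T.two
  obtain ⟨hc, hc'⟩ := commute_of_involution (endHom Q) hNN hNN' h2 (s := r) (e := e)
    (LinearMap.ext fun v => by simp [endHom_apply, hrv, hN])
    (by simp [N']) hj hjj
  have hjN : ∀ v, (j : V ≃ₗ[F] V) (N v) = N ((j : V ≃ₗ[F] V) v) := fun v => LinearMap.congr_fun hc v
  have hjN' : ∀ v, (j : V ≃ₗ[F] V) (N' v) = N' ((j : V ≃ₗ[F] V) v) := fun v => LinearMap.congr_fun hc' v
  have hinv : ∀ v, (j : V ≃ₗ[F] V) ((j : V ≃ₗ[F] V) v) = v := fun v => by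
    rw [← orth_mul_apply, hjj]; rfl
  have hfix : ∀ v, N v = 0 → N' v = 0 → (j : V ≃ₗ[F] V) v = v := by
    intro v hv hv'
    rw [hN] at hv
    rw [hN', sub_eq_zero] at hv'
    have hgen : ∀ x ∈ Subgroup.closure ({r, e} : Set (orth Q)), (x : V ≃ₗ[F] V) v = v := by
      intro x hx
      induction hx using Subgroup.closure_induction with
      | mem x hx =>
        rcases hx with rfl | rfl
        · rw [hrv, hv, add_zero]
        · exact hv'
      | one => rfl
      | mul x y _ _ hx hy => rw [orth_mul_apply, hy, hx]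
      | inv x _ hx => conv_lhs => rw [← hx, orth_inv_apply_apply]
    exact hgen j hj
  have hm0 : ∀ v, (j : V ≃ₗ[F] V) v = -v → N v = 0 → N' v = 0 → v = 0 := fun v hv h h' => by
    have h3 : (2 : F) • v = 0 := by
      rw [two_smul]
      nth_rewrite 1 [← neg_neg v]
      rw [← hv, hfix v h h', neg_add_cancel]
    exact (smul_eq_zero.1 h3).resolve_left T.two
  have hmN : ∀ v, (j : V ≃ₗ[F] V) v = -v → (j : V ≃ₗ[F] V) (N v) = -N v := fun v hv => by rw [hjN, hv, map_neg]
  have hmN' : ∀ v, (j : V ≃ₗ[F] V) v = -v → (j : V ≃ₗ[F] V) (N' v) = -N' v := fun v hv => by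
    rw [hjN', hv, map_neg]
  have n1 : ∀ v, N (N v) = 0 := fun v => LinearMap.congr_fun hNN v
  have n2 : ∀ v, N' (N' v) = 0 := fun v => LinearMap.congr_fun hNN' v
  set D : Module.End F V := N * N' + N' * N
  have hD : ∀ v, D v = N (N' v) + N' (N v) := fun v => rfl
  have hDinj : ∀ v, (j : V ≃ₗ[F] V) v = -v → D v = 0 → v = 0 := by
    intro v hv h
    rw [hD] at h
    have h1 : N' (N (N' v)) = 0 := by
      rw [eq_neg_of_add_eq_zero_left h, map_neg, n2, neg_zero]
    have h2' : N (N' v) = 0 := hm0 _ (hmN _ (hmN' _ hv)) (n1 _) h1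
    have h3 : N' (N v) = 0 := by rwa [h2', zero_add] at h
    have h4 : N v = 0 := hm0 _ (hmN _ hv) (n1 _) h3
    have h5 : N' v = 0 := hm0 _ (hmN' _ hv) h2' (n2 _)
    exact hm0 v hv h4 h5
  let U : Submodule F V := LinearMap.ker (endHom Q j + 1)
  have hU : ∀ v, v ∈ U ↔ (j : V ≃ₗ[F] V) v = -v := fun v => by
    simp [U, endHom_apply, eq_neg_iff_add_eq_zero]
  have hDU : ∀ v ∈ U, D v ∈ U := fun v hv => by
    rw [hU] at hv ⊢
    rw [hD, map_add, hmN _ (hmN' _ hv), hmN' _ (hmN _ hv)]; abel
  have hsurj : Function.Surjective (D.restrict hDU) := LinearMap.injective_iff_surjective.1 (by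
    rw [injective_iff_map_eq_zero]
    exact fun v hv => Subtype.ext (hDinj v ((hU v).1 v.2) (congrArg Subtype.val hv)))
  have hperpN : ∀ v, Perp2 C z η v → N v = 0 := fun v hv => by rw [hN, hv.1, hv.2]; simp
  have hker : ∀ v, N v = 0 → In2 pu z η ((j : V ≃ₗ[F] V) v - v) := by
    intro v hv
    obtain ⟨⟨u, huU⟩, hu⟩ := hsurj ⟨v - (j : V ≃ₗ[F] V) v, (hU _).2 (by rw [map_sub, hinv]; abel)⟩
    have hu : D u = v - (j : V ≃ₗ[F] V) v := congrArg Subtype.val hu
    have hum := (hU u).1 huU
    have hNu : N u = 0 := hDinj _ (hmN _ hum) (by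
      calc D (N u) = N (D u) := by rw [hD, hD, map_add, n1, n1, map_zero, add_zero, zero_add]
        _ = 0 := by rw [hu, map_sub, ← hjN, hv, map_zero, sub_zero])
    rw [hD, hNu, map_zero, add_zero, hN] at hu
    refine ⟨C η (N' u), -C z (N' u), ?_⟩
    rw [← neg_sub, ← hu]
    simp
    abel
  have hto : ∀ v, In2 pu z η v → In2 pu z η ((j : V ≃ₗ[F] V) v) := by
    rintro _ ⟨a, b, rfl⟩
    have h1 : pu a z + pu b η = N (pu b z' - pu a η') := by
      rw [hN]
      simp [T.C_pu, polar_comm (⇑qB) z' z, L.hp.pair, polar_comm (⇑qB) η' z, L.zη', L.z'η,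
        polar_comm (⇑qB) η' η, L.hq.pair]
      abel
    rw [h1, hjN, hN]
    exact ⟨-C η ((j : V ≃ₗ[F] V) (pu b z' - pu a η')), C z ((j : V ≃ₗ[F] V) (pu b z' - pu a η')),
      by simp; abel⟩
  obtain ⟨G₀, K₀, hGK⟩ : Pure pu j :=
    T.pure_of_carries hg L L hjM fun v => ⟨hto v, fun h => by have := hto _ h; rwa [hinv] at this⟩
  obtain ⟨a₀, a₁, ha, ha₀⟩ := T.exists_pair_one
  obtain ⟨w, w', h1, h2w, h3, h4, h5, -⟩ := T.exists_middle L
  have hdiff : ∀ a u, polar qB z u = 0 → polar qB η u = 0 →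
      In2 pu z η ((j : V ≃ₗ[F] V) (pu a u) - pu a u) := fun a u hu hu' =>
    hker _ (hperpN _ ⟨by rw [T.C_pu, polar_comm, hu, zero_smul], by rw [T.C_pu, polar_comm, hu', zero_smul]⟩)
  set g := polar qB (K₀ w) w' with hgdef
  have hga : ∀ a, g • G₀ a = a := by
    intro a
    obtain ⟨p, q, hpq⟩ := hdiff a w h1 h2w
    have := congrArg (C w') hpq
    rw [map_sub, map_add, hGK, T.C_pu, T.C_pu, T.C_pu, T.C_pu, h3, h4, polar_comm (⇑qB) w w', h5, one_smul,
      zero_smul, zero_smul, add_zero, sub_eq_zero] at this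
    exact this
  have hg0 : g ≠ 0 := fun h => ha₀ (by rw [← hga a₀, h, zero_smul])
  let K : B →ₗ[F] B := g⁻¹ • K₀
  have hK : ∀ a u, (j : V ≃ₗ[F] V) (pu a u) = pu a (K u) := fun a u => by
    rw [hGK]
    conv_rhs => rw [← hga a]
    simp [K, smul_smul, inv_mul_cancel₀ hg0]
  have hiso : ∀ x y, polar qB (K x) (K y) = polar qB x y := fun x y => by
    have := orth_polar j (pu a₀ x) (pu a₁ y)
    rwa [hK, hK, T.form, T.form, ha, one_mul, one_mul] at this
  have hKK : ∀ u, K (K u) = u := fun u => by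
    have := hinv (pu a₀ u)
    rw [hK, hK, ← sub_eq_zero, ← map_sub] at this
    exact sub_eq_zero.1 ((T.pu_eq_zero this).resolve_left ha₀)
  have hsymm : ∀ x y, polar qB (K x) y = polar qB x (K y) := fun x y => by
    conv_lhs => rw [← hKK y]
    rw [hiso]
  have hom : ∀ u, K (polar qB u z • η - polar qB u η • z) = polar qB (K u) z • η - polar qB (K u) η • z := by
    intro u
    have e : ∀ u, N (pu a₀ u) = pu a₀ (polar qB u z • η - polar qB u η • z) := fun u => by
      rw [hN, T.C_pu, T.C_pu]; simp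
    have := hjN (pu a₀ u)
    rw [e, hK, hK, e, ← sub_eq_zero, ← map_sub] at this
    exact sub_eq_zero.1 ((T.pu_eq_zero this).resolve_left ha₀)
  set a := polar qB z' (K z) with hadef
  have hKη := hom z'
  rw [polar_comm (⇑qB) z' z, L.hp.pair, L.z'η, one_smul, zero_smul, sub_zero, hsymm, hsymm, ← hadef] at hKη
  have hKz := hom η'
  rw [polar_comm (⇑qB) η' z, L.zη', polar_comm (⇑qB) η' η, L.hq.pair, zero_smul, one_smul, zero_sub, map_neg,
    hsymm, hsymm, neg_eq_iff_eq_neg, neg_sub] at hKz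
  have hcc : polar qB η' (K z) = 0 := by
    have h := congrArg (polar qB η') hKz
    rw [polar_sub_right, polar_smul_right, polar_smul_right, polar_comm (⇑qB) η' z, L.zη',
      polar_comm (⇑qB) η' η, L.hq.pair, smul_eq_mul, smul_eq_mul, mul_zero, mul_one, zero_sub] at h
    exact (mul_eq_zero.1 (show (2 : F) * polar qB η' (K z) = 0 by linear_combination h)).resolve_left T.two
  have hbb : polar qB z' (K η) = 0 := by
    have h := congrArg (polar qB z') hKη
    rw [polar_sub_right, polar_smul_right, polar_smul_right, polar_comm (⇑qB) z' z, L.hp.pair, L.z'η,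
      smul_eq_mul, smul_eq_mul, mul_zero, mul_one, zero_sub] at h
    exact (mul_eq_zero.1 (show (2 : F) * polar qB z' (K η) = 0 by linear_combination h)).resolve_left T.two
  rw [hcc, zero_smul, sub_zero] at hKz
  rw [hbb, zero_smul, sub_zero] at hKη
  have had : polar qB η' (K η) = a := by
    rw [hadef, hKz, polar_smul_right, polar_comm (⇑qB) z' z, L.hp.pair, smul_eq_mul, mul_one]
  rw [had] at hKz
  have hlow : ∀ u, polar qB z u = 0 → polar qB η u = 0 → ∃ s t : F, K u - u = s • z + t • η := by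
    intro u hu hu'
    obtain ⟨p, q, hpq⟩ := hdiff a₀ u hu hu'
    refine ⟨polar qA p a₁, polar qA q a₁, T.Bext fun i => ?_⟩
    have h := congrArg (fun v => polar qA (C i v) a₁) hpq
    simp only [map_sub, map_add, hK, T.C_pu, polar_add_left, polar_sub_left, polar_smul_left, ha,
      smul_eq_mul, mul_one] at h
    simp only [polar_add_left, polar_sub_left, polar_smul_left, smul_eq_mul]
    rw [h]; ring
  have ha2 : (a - 1) * (a + 1) = 0 := by
    have h := hKK z
    rw [hKz, map_smul, hKz, smul_smul] at h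
    have h' : (a * a) • z = (1 : F) • z := by rw [h, one_smul]
    linear_combination smul_left_injective F L.hp.ne_zero h'
  rcases mul_eq_zero.1 ha2 with h | h
  · -- the involution would be trivial
    exfalso
    have ha1 : a = 1 := sub_eq_zero.1 h
    rw [ha1, one_smul] at hKz hKη
    have hlin : ∀ u, K (K u - u) = -(K u - u) := fun u => by rw [map_sub, hKK]; abel
    have htwo : ∀ x : B, x = -x → x = 0 := fun x hx =>
      (smul_eq_zero.1 (show (2 : F) • x = 0 by rw [two_smul]; nth_rewrite 2 [hx]; exact add_neg_cancel x)).resolve_left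
        T.two
    have hperp : ∀ u, polar qB z u = 0 → polar qB η u = 0 → K u = u := by
      intro u hu hu'
      obtain ⟨s, t, hst⟩ := hlow u hu hu'
      have h1 := hlin u
      rw [hst, map_add, map_smul, map_smul, hKz, hKη] at h1
      rw [← sub_eq_zero, hst]
      exact htwo _ h1
    refine hj1 (T.orth_ext_pure fun x u => ?_)
    rw [hK]
    refine congrArg _ (sub_eq_zero.1 (htwo _ ?_))
    rw [← hlin u, hperp (K u - u)]
    · rw [polar_sub_right, ← hsymm, hKz, sub_self]
    · rw [polar_sub_right, ← hsymm, hKη, sub_self]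
  · have ha1 : a = -1 := eq_neg_of_add_eq_zero_left h
    rw [ha1, neg_one_smul] at hKz hKη
    exact ⟨K, hK, hKz, hKη, hlow⟩

/-- Without layers every element of the group is pure. -/
theorem all_pure (hg : Good qB M pu C) : ∀ X ∈ M, Pure pu X := by
  intro X hX
  by_contra hXp
  haveI : Finite (orth Q) := by
    refine Finite.of_injective (fun g : orth Q => ⇑(g : V ≃ₗ[F] V)) fun g h e => ?_
    exact orth_ext fun v => congrFun e v
  obtain ⟨z₀, hz₀, hz₀q⟩ := exists_singular T.hB (by have := T.five; omega)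
  obtain ⟨η₀, z₀', η₀', L₀⟩ := T.exists_line_through hz₀ hz₀q
  obtain ⟨r₀, hr₀, hr₀p, hr₀v⟩ := T.exists_root L₀
  obtain ⟨a₀, a₁, ha, ha₀⟩ := T.exists_pair_one
  set e := X * r₀ * X⁻¹ with he_def
  have heM : e ∈ M := M.mul_mem (M.mul_mem hX hr₀) (M.inv_mem hX)
  have hrq : ∀ {z η z' η' : B}, Ln qB z η z' η' → ∀ {r : orth Q},
      (∀ v, (r : V ≃ₗ[F] V) v = v + (pu (C z v) η - pu (C η v) z)) →
      ∀ v, (r : V ≃ₗ[F] V) ((r : V ≃ₗ[F] V) v - v) = (r : V ≃ₗ[F] V) v - v := by
    intro z η z' η' L r hr v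
    rw [hr v, add_sub_cancel_left, hr]
    simp [T.C_pu, polar_self', L.hp.left, L.hq.left, L.zη, polar_comm (⇑qB) η z]
  have hev : ∀ v, (e : V ≃ₗ[F] V) v =
      (X : V ≃ₗ[F] V) ((r₀ : V ≃ₗ[F] V) (((X⁻¹ : orth Q) : V ≃ₗ[F] V) v)) := fun v => rfl
  have heq : ∀ v, (e : V ≃ₗ[F] V) ((e : V ≃ₗ[F] V) v - v) = (e : V ≃ₗ[F] V) v - v := by
    intro v
    obtain ⟨v, rfl⟩ := (X : V ≃ₗ[F] V).surjective v
    rw [hev ((X : V ≃ₗ[F] V) v), orth_inv_apply_apply, ← map_sub, hev, orth_inv_apply_apply, hrq L₀ hr₀v]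
  let Z₀ : Submodule F B :=
    { carrier := {i | ∀ v, In2 pu z₀ η₀ v → C i ((X : V ≃ₗ[F] V) v) = 0}
      add_mem' := fun {i i'} hi hi' v hv => by rw [map_add, LinearMap.add_apply, hi v hv, hi' v hv, add_zero]
      zero_mem' := fun v _ => by rw [map_zero]; rfl
      smul_mem' := fun t i hi v hv => by rw [map_smul, LinearMap.smul_apply, hi v hv, smul_zero] }
  set R := perp qB Z₀ with hRdef
  obtain ⟨p, hp⟩ := CharP.exists F
  haveI : Fact p.Prime := ⟨CharP.char_is_prime F p⟩
  -- the four-space of a line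
  have hfour : ∀ z η z' η' : B, Ln qB z η z' η' → ∃ x y : B, R ≤ Submodule.span F {z, η, x, y} := by
    intro z η z' η' L
    obtain ⟨r, hr, hrp, hrv⟩ := T.exists_root L
    set G := Subgroup.closure ({r, e} : Set (orth Q)) with hG
    have hGM : G ≤ M := (Subgroup.closure_le M).2 (Set.insert_subset_iff.2 ⟨hr, Set.singleton_subset_iff.2 heM⟩)
    have hnp : ¬ IsPGroup p G := fun h => hXp (T.pure_of_conj_root hg L₀ hX hr₀v
      (T.pure_of_isPGroup hg L hrv hrp hGM (Subgroup.subset_closure (by simp)) h e (Subgroup.subset_closure (by simp))))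
    obtain ⟨j, hj, hj1, hjj⟩ := T.exists_involution (hrq L hrv) heq hnp
    obtain ⟨K, hK, hKz, hKη, hKlow⟩ := T.involution_shape hg L hr heM hrv heq hj hj1 hjj
    have hj₀ : X⁻¹ * j * X ∈ Subgroup.closure ({r₀, X⁻¹ * r * X} : Set (orth Q)) := by
      have hmap : MulAut.conj X⁻¹ j ∈ G.map (MulAut.conj X⁻¹).toMonoidHom := ⟨j, hj, rfl⟩
      rw [hG, MonoidHom.map_closure, Set.image_pair] at hmap
      simp only [MulEquiv.toMonoidHom_eq_coe, MonoidHom.coe_coe, MulAut.conj_apply, inv_inv] at hmap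
      have he' : X⁻¹ * e * X = r₀ := by rw [he_def]; group
      rwa [he', Set.pair_comm] at hmap
    have hq' : ∀ v, ((X⁻¹ * r * X : orth Q) : V ≃ₗ[F] V) (((X⁻¹ * r * X : orth Q) : V ≃ₗ[F] V) v - v) =
        ((X⁻¹ * r * X : orth Q) : V ≃ₗ[F] V) v - v := by
      intro v
      have hY : ∀ u, ((X⁻¹ * r * X : orth Q) : V ≃ₗ[F] V) u =
          ((X⁻¹ : orth Q) : V ≃ₗ[F] V) ((r : V ≃ₗ[F] V) ((X : V ≃ₗ[F] V) u)) := fun u => rfl
      obtain ⟨v, rfl⟩ := ((X⁻¹ : orth Q) : V ≃ₗ[F] V).surjective v
      rw [hY (((X⁻¹ : orth Q) : V ≃ₗ[F] V) v), orth_apply_inv_apply, ← map_sub, hY, orth_apply_inv_apply,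
        hrq L hrv]
    obtain ⟨K₁, hK₁, hK₁z, hK₁η, -⟩ := T.involution_shape hg L₀ hr₀ (M.mul_mem (M.mul_mem (M.inv_mem hX) hr) hX)
      hr₀v hq' hj₀ (fun h => hj1 (by
        have : j = X * (X⁻¹ * j * X) * X⁻¹ := by group
        rw [this, h]; group)) (by
        calc X⁻¹ * j * X * (X⁻¹ * j * X) = X⁻¹ * (j * j) * X := by group
          _ = 1 := by rw [hjj]; group)
    have hiso : ∀ x y, polar qB (K x) (K y) = polar qB x y := fun x y => by
      have := orth_polar j (pu a₀ x) (pu a₁ y)
      rwa [hK, hK, T.form, T.form, ha, one_mul, one_mul] at this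
    have hKK : ∀ u, K (K u) = u := fun u => by
      have h1 : (j : V ≃ₗ[F] V) ((j : V ≃ₗ[F] V) (pu a₀ u)) = pu a₀ u := by rw [← orth_mul_apply, hjj]; rfl
      rw [hK, hK, ← sub_eq_zero, ← map_sub] at h1
      exact sub_eq_zero.1 ((T.pu_eq_zero h1).resolve_left ha₀)
    have hplus : ∀ i, K i = i → i ∈ Z₀ := by
      rintro i hi _ ⟨p', q', rfl⟩
      set v := pu p' z₀ + pu q' η₀
      have h1 : ((X⁻¹ * j * X : orth Q) : V ≃ₗ[F] V) v = -v := by
        simp only [v, map_add, hK₁, hK₁z, hK₁η, map_neg]; abel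
      have h2 : (j : V ≃ₗ[F] V) ((X : V ≃ₗ[F] V) v) = -(X : V ≃ₗ[F] V) v := by
        have := congrArg (fun u => (X : V ≃ₗ[F] V) u) h1
        simpa [orth_mul_apply, orth_apply_inv_apply] using this
      have h3 := T.C_right hK i ((X : V ≃ₗ[F] V) v)
      rw [hi, h2, map_neg] at h3
      exact (smul_eq_zero.1 (show (2 : F) • C i ((X : V ≃ₗ[F] V) v) = 0 by
        rw [two_smul]; nth_rewrite 1 [← h3]; exact neg_add_cancel _)).resolve_left T.two
    refine ⟨K z' - z', K η' - η', ?_⟩
    rw [hRdef, ← perp_perp T.hB (Submodule.span F {z, η, K z' - z', K η' - η'})]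
    refine perp_anti fun i hi => hplus i ?_
    have hi' : ∀ x ∈ ({z, η, K z' - z', K η' - η'} : Set B), polar qB x i = 0 := fun x hx =>
      mem_perp.1 hi x (Submodule.subset_span hx)
    refine T.Bext fun u => ?_
    set m := u - polar qB z u • z' - polar qB η u • η' with hm
    have hsymm : ∀ x, polar qB (K i) x = polar qB i (K x) := fun x => by
      conv_lhs => rw [← hKK x]
      rw [hiso]
    obtain ⟨s, t, hst⟩ := hKlow m
      (by simp [hm, polar_sub_right, polar_smul_right, L.hp.pair, L.zη'])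
      (by simp [hm, polar_sub_right, polar_smul_right, polar_comm (⇑qB) η z', L.z'η, L.hq.pair])
    have hzero : polar qB i (K u - u) = 0 := by
      have e : K u - u = s • z + t • η + polar qB z u • (K z' - z') + polar qB η u • (K η' - η') := by
        rw [← hst, hm]; simp only [map_sub, map_smul, smul_sub]; abel
      rw [polar_comm, e]
      simp only [polar_add_left, polar_smul_left, hi' z (by simp), hi' η (by simp), hi' (K z' - z') (by simp),
        hi' (K η' - η') (by simp), smul_zero, add_zero]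
    rw [polar_sub_right, sub_eq_zero] at hzero
    rw [hsymm, hzero]
  -- the support has dimension at least three
  have hS : ∀ r₁ r₂ : B, R ≤ Submodule.span F {r₁, r₂} → ∀ v, In2 pu z₀ η₀ v → In2 pu r₁ r₂ ((X : V ≃ₗ[F] V) v) := by
    intro r₁ r₂ hR v hv
    have hperp : ∀ i, polar qB r₁ i = 0 → polar qB r₂ i = 0 → C i ((X : V ≃ₗ[F] V) v) = 0 := fun i h1 h2 => by
      have : i ∈ Z₀ := by
        rw [← perp_perp T.hB Z₀]
        refine mem_perp.2 fun w hw => ?_
        obtain ⟨s, t, rfl⟩ := Submodule.mem_span_pair.1 (hR hw)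
        rw [polar_add_left, polar_smul_left, polar_smul_left, h1, h2, smul_zero, smul_zero, add_zero]
      exact this v hv
    by_cases hr1 : r₁ = 0
    · by_cases hr2 : r₂ = 0
      · exact ⟨0, 0, T.Vext fun u => by rw [hperp u (by rw [hr1, polar_zero_left]) (by rw [hr2, polar_zero_left])]; simp⟩
      · obtain ⟨i, hi⟩ := exists_polar_eq_one T.hB hr2
        refine ⟨0, C i ((X : V ≃ₗ[F] V) v), T.Vext fun u => ?_⟩
        have := hperp (u - polar qB r₂ u • i) (by rw [hr1, polar_zero_left]) (by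
          rw [polar_sub_right, polar_smul_right, hi, smul_eq_mul, mul_one, sub_self])
        rw [map_sub, map_smul, LinearMap.sub_apply, LinearMap.smul_apply, sub_eq_zero] at this
        rw [this, map_zero, LinearMap.zero_apply, zero_add, T.C_pu]
    · by_cases hr2 : r₂ ∈ Submodule.span F {r₁}
      · obtain ⟨c, hc⟩ := Submodule.mem_span_singleton.1 hr2
        obtain ⟨i, hi⟩ := exists_polar_eq_one T.hB hr1
        refine ⟨C i ((X : V ≃ₗ[F] V) v), 0, T.Vext fun u => ?_⟩
        have := hperp (u - polar qB r₁ u • i) (by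
          rw [polar_sub_right, polar_smul_right, hi, smul_eq_mul, mul_one, sub_self]) (by
          rw [← hc, polar_sub_right, polar_smul_right, polar_smul_left, polar_smul_left, hi, smul_eq_mul,
            smul_eq_mul, smul_eq_mul, mul_one, mul_comm, sub_self])
        rw [map_sub, map_smul, LinearMap.sub_apply, LinearMap.smul_apply, sub_eq_zero] at this
        rw [this, map_zero, LinearMap.zero_apply, add_zero, T.C_pu]
      · obtain ⟨i, hi1, hi2⟩ := exists_polar_pair T.hB hr1 hr2 1 0
        obtain ⟨k, hk1, hk2⟩ := exists_polar_pair T.hB hr1 hr2 0 1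
        refine ⟨C i ((X : V ≃ₗ[F] V) v), C k ((X : V ≃ₗ[F] V) v), T.Vext fun u => ?_⟩
        have := hperp (u - polar qB r₁ u • i - polar qB r₂ u • k)
          (by simp [polar_sub_right, polar_smul_right, hi1, hk1])
          (by simp [polar_sub_right, polar_smul_right, hi2, hk2])
        simp only [map_sub, map_smul, LinearMap.sub_apply, LinearMap.smul_apply] at this
        simp only [map_add, T.C_pu]
        linear_combination (norm := module) this
  have hle2 : ∀ r₁ r₂ : B, R ≤ Submodule.span F {r₁, r₂} → False := by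
    intro r₁ r₂ hR
    let f : A × A →ₗ[F] V := (X : V ≃ₗ[F] V).toLinearMap.comp ((pu.flip z₀).coprod (pu.flip η₀))
    let g : A × A →ₗ[F] V := (pu.flip r₁).coprod (pu.flip r₂)
    have hfe : ∀ a b : A, f (a, b) = (X : V ≃ₗ[F] V) (pu a z₀ + pu b η₀) := fun a b => by simp [f]
    have hge : ∀ a b : A, g (a, b) = pu a r₁ + pu b r₂ := fun a b => by simp [g]
    have hsub : LinearMap.range f ≤ LinearMap.range g := by
      rintro _ ⟨⟨a, b⟩, rfl⟩
      obtain ⟨a', b', h⟩ := hS r₁ r₂ hR _ ⟨a, b, rfl⟩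
      exact ⟨(a', b'), by rw [hge, hfe, h]⟩
    have hfinj : Function.Injective f := by
      refine (injective_iff_map_eq_zero f).2 fun ⟨a, b⟩ h => ?_
      rw [hfe, LinearEquiv.map_eq_zero_iff] at h
      have h1 := congrArg (C z₀') h
      have h2 := congrArg (C η₀') h
      simp [T.C_pu, L₀.hp.pair, polar_comm (⇑qB) η₀ z₀', L₀.z'η] at h1
      simp [T.C_pu, L₀.zη', L₀.hq.pair] at h2
      rw [h1, h2]; rfl
    have hrk : finrank F (LinearMap.range g) ≤ finrank F (LinearMap.range f) := by
      rw [LinearMap.finrank_range_of_inj hfinj]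
      exact LinearMap.finrank_range_le g
    have heqr := Submodule.eq_of_le_of_finrank_le hsub hrk
    have hginj : Function.Injective g := by
      rw [← LinearMap.ker_eq_bot, ← Submodule.finrank_eq_zero (R := F)]
      have h := LinearMap.finrank_range_add_finrank_ker g
      rw [← heqr, LinearMap.finrank_range_of_inj hfinj] at h
      omega
    have hr1 : r₁ ≠ 0 := fun h => ha₀ (by
      have := @hginj (a₀, 0) (0, 0) (by rw [hge, hge, h]; simp)
      simpa using this)
    have hr2 : r₂ ∉ Submodule.span F {r₁} := fun h => by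
      obtain ⟨c, hc⟩ := Submodule.mem_span_singleton.1 h
      have := @hginj (c • a₀, -a₀) (0, 0) (by rw [hge, hge, ← hc]; simp)
      simp at this
      exact ha₀ this.2
    have hiso : ∀ x y : B, (∀ a, ∃ u, In2 pu z₀ η₀ u ∧ (X : V ≃ₗ[F] V) u = pu a x) →
        (∀ a, ∃ u, In2 pu z₀ η₀ u ∧ (X : V ≃ₗ[F] V) u = pu a y) → polar qB x y = 0 := by
      intro x y hx hy
      obtain ⟨u, ⟨p', q', rfl⟩, hu⟩ := hx a₀
      obtain ⟨u', ⟨s', t', rfl⟩, hu'⟩ := hy a₁
      have h := T.form a₀ x a₁ y
      rw [← hu, ← hu', orth_polar, ha, one_mul] at h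
      rw [← h]
      simp [polar_add_left, polar_add_right, T.form, polar_self', L₀.hp.left, L₀.hq.left, L₀.zη,
        polar_comm (⇑qB) η₀ z₀]
    have hpre : ∀ a b : A, ∃ u, In2 pu z₀ η₀ u ∧ (X : V ≃ₗ[F] V) u = pu a r₁ + pu b r₂ := fun a b => by
      obtain ⟨⟨a', b'⟩, h⟩ : pu a r₁ + pu b r₂ ∈ LinearMap.range f := by rw [heqr]; exact ⟨(a, b), hge a b⟩
      exact ⟨_, ⟨a', b', rfl⟩, (hfe a' b').symm.trans h⟩
    have e1 : ∀ a, ∃ u, In2 pu z₀ η₀ u ∧ (X : V ≃ₗ[F] V) u = pu a r₁ := fun a => by simpa using hpre a 0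
    have e2 : ∀ a, ∃ u, In2 pu z₀ η₀ u ∧ (X : V ≃ₗ[F] V) u = pu a r₂ := fun a => by simpa using hpre 0 a
    have hs1 := hiso r₁ r₁ e1 e1
    have hs2 := hiso r₂ r₂ e2 e2
    rw [polar_self', mul_eq_zero] at hs1 hs2
    obtain ⟨s₁, s₂, L₁⟩ := exists_ln T.hB (hs1.resolve_left T.two) (hs2.resolve_left T.two) (hiso r₁ r₂ e1 e2) hr1 hr2
    refine hXp (T.pure_of_carries hg L₀ L₁ hX fun v => ⟨hS r₁ r₂ hR v, ?_⟩)
    rintro ⟨a, b, h⟩
    obtain ⟨u, hu, hu'⟩ := hpre a b
    rwa [(X : V ≃ₗ[F] V).injective (h.trans hu'.symm)]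
  have hR3 : 3 ≤ finrank F R := by
    by_contra hlt
    have b' := Module.finBasis F R
    rcases h : finrank F R with _ | _ | _ | n
    · exact hle2 0 0 (by rw [Submodule.finrank_eq_zero.1 h]; exact bot_le)
    · let c := Module.finBasisOfFinrankEq F R h
      refine hle2 (c 0) 0 fun x hx => Submodule.mem_span_pair.2 ⟨c.repr ⟨x, hx⟩ 0, 0, ?_⟩
      have := congrArg Subtype.val (c.sum_repr ⟨x, hx⟩)
      simpa using this
    · let c := Module.finBasisOfFinrankEq F R h
      refine hle2 (c 0) (c 1) fun x hx => Submodule.mem_span_pair.2 ⟨c.repr ⟨x, hx⟩ 0, c.repr ⟨x, hx⟩ 1, ?_⟩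
      have h' := c.sum_repr ⟨x, hx⟩
      rw [Fin.sum_univ_two] at h'
      exact congrArg Subtype.val h'
    · omega
  have hR4 : finrank F R ≤ 4 := by
    obtain ⟨x, y, h⟩ := hfour _ _ _ _ L₀
    classical
    refine (Submodule.finrank_mono h).trans ((finrank_span_le_card (R := F) ({z₀, η₀, x, y} : Set B)).trans ?_)
    simp only [Set.toFinset_insert, Set.toFinset_singleton]
    exact Finset.card_le_four
  -- every line meets the support, in a nonzero vector
  have hmeet : ∀ z η z' η' : B, Ln qB z η z' η' → (∃ s t : F, s • z + t • η ∈ R ∧ (s ≠ 0 ∨ t ≠ 0)) ∧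
      (finrank F R = 4 → z ∈ R) := by
    intro z η z' η' L
    obtain ⟨x, y, hle⟩ := hfour _ _ _ _ L
    set W := Submodule.span F ({z, η, x, y} : Set B)
    have hW : finrank F W ≤ 4 := by
      classical
      refine (finrank_span_le_card (R := F) ({z, η, x, y} : Set B)).trans ?_
      simp only [Set.toFinset_insert, Set.toFinset_singleton]
      exact Finset.card_le_four
    refine ⟨?_, fun h4 => ?_⟩
    · let Λ : F × F →ₗ[F] B ⧸ R := (Submodule.mkQ R).comp
        ((LinearMap.toSpanSingleton F B z).coprod (LinearMap.toSpanSingleton F B η))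
      have hrange : LinearMap.range Λ ≤ W.map R.mkQ := by
        rintro _ ⟨⟨s, t⟩, rfl⟩
        refine Submodule.mem_map_of_mem ?_
        exact W.add_mem (W.smul_mem s (Submodule.subset_span (by simp))) (W.smul_mem t (Submodule.subset_span (by simp)))
      have hWq : finrank F (W.map R.mkQ) ≤ 1 := by
        have h := LinearMap.finrank_range_add_finrank_ker (R.mkQ.domRestrict W)
        rw [show LinearMap.range (R.mkQ.domRestrict W) = W.map R.mkQ from LinearMap.range_domRestrict ..] at h
        have hk : finrank F R ≤ finrank F (LinearMap.ker (R.mkQ.domRestrict W)) := by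
          refine LinearMap.finrank_le_finrank_of_injective
            (f := (Submodule.inclusion hle).codRestrict (LinearMap.ker (R.mkQ.domRestrict W)) fun c => by
              rw [LinearMap.mem_ker]; exact (Submodule.Quotient.mk_eq_zero R).2 c.2) ?_
          intro c c' hcc
          exact Submodule.inclusion_injective hle (congrArg Subtype.val hcc)
        omega
      by_contra hno
      push Not at hno
      have hinj : Function.Injective Λ := by
        refine (injective_iff_map_eq_zero Λ).2 fun ⟨s, t⟩ h => ?_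
        have h' : s • z + t • η ∈ R := by
          simpa [Λ, Submodule.Quotient.mk_eq_zero, -Submodule.Quotient.mk_add, -Submodule.Quotient.mk_smul] using h
        obtain ⟨e1, e2⟩ := hno s t h'
        rw [e1, e2]; rfl
      have h2 := LinearMap.finrank_range_of_inj hinj
      have h3 := Submodule.finrank_mono hrange
      rw [h2, Module.finrank_prod, Module.finrank_self] at h3
      omega
    · have : R = W := Submodule.eq_of_le_of_finrank_le hle (by omega)
      rw [this]
      exact Submodule.subset_span (by simp)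
  have hRtop : R ≠ ⊤ := fun h => by
    have h1 := finrank_top F B
    rw [← h] at h1
    have := T.five
    omega
  have hR3' : finrank F R = 3 := by
    by_contra h
    refine hRtop (eq_top_of_singular T.hB (by have := T.five; omega) fun z hz => ?_)
    by_cases hz0 : z = 0
    · rw [hz0]; exact zero_mem _
    obtain ⟨η, z', η', L⟩ := T.exists_line_through hz0 hz
    exact (hmeet _ _ _ _ L).2 (by omega)
  obtain ⟨z, hz, hzR, hzR'⟩ : ∃ z, qB z = 0 ∧ z ∉ R ∧ z ∉ perp qB R := by
    have h1 : ∃ z, qB z = 0 ∧ z ∉ R := by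
      by_contra h
      push Not at h
      exact hRtop (eq_top_of_singular T.hB (by have := T.five; omega) h)
    have h2 : ∃ z, qB z = 0 ∧ z ∉ perp qB R := by
      by_contra h
      push Not at h
      have h' := eq_top_of_singular T.hB (by have := T.five; omega) h
      have h'' := finrank_perp T.hB R
      rw [h', finrank_top] at h''
      have := T.five
      omega
    obtain ⟨z₁, hz₁, hz₁R⟩ := h1
    obtain ⟨z₂, hz₂, hz₂R⟩ := h2
    by_cases c1 : z₁ ∈ perp qB R
    swap
    · exact ⟨z₁, hz₁, hz₁R, c1⟩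
    by_cases c2 : z₂ ∈ R
    swap
    · exact ⟨z₂, hz₂, c2, hz₂R⟩
    refine ⟨z₁ + z₂, ?_, fun h => hz₁R ?_, fun h => hz₂R ?_⟩
    · rw [QuadraticMap.map_add (⇑qB), hz₁, hz₂, polar_comm, mem_perp.1 c1 _ c2]; simp
    · simpa using R.sub_mem h c2
    · simpa using (perp qB R).sub_mem h c1
  have hz0 : z ≠ 0 := fun h => hzR (h ▸ zero_mem _)
  obtain ⟨z', hzz'⟩ := exists_hypPair T.hB hz0 hz
  set R₁ := R ⊓ perp qB (Submodule.span F {z}) with hR₁
  set W := R₁ ⊔ Submodule.span F {z} with hW
  have hR₁2 : finrank F R₁ < finrank F R := by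
    refine Submodule.finrank_lt_finrank_of_lt (lt_of_le_of_ne inf_le_left fun h => hzR' ?_)
    refine mem_perp.2 fun x hx => ?_
    rw [polar_comm]
    have : x ∈ R₁ := by rw [h]; exact hx
    exact mem_perp_span.1 this.2
  have hin : ∀ η, qB η = 0 → polar qB z η = 0 → η ∈ W := by
    intro η hη hzη
    by_cases hm : η ∈ Submodule.span F {z}
    · exact Submodule.mem_sup_right hm
    obtain ⟨y, y', L⟩ := exists_ln T.hB hz hη hzη hz0 hm
    obtain ⟨⟨s, t, hst, hne⟩, -⟩ := hmeet _ _ _ _ L
    have ht : t ≠ 0 := by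
      rintro rfl
      rw [zero_smul, add_zero] at hst
      have hs : s ≠ 0 := hne.resolve_right (fun h => h rfl)
      exact hzR (by simpa [smul_smul, inv_mul_cancel₀ hs] using R.smul_mem s⁻¹ hst)
    have hm' : s • z + t • η ∈ R₁ := ⟨hst, mem_perp_span.2 (by
      rw [polar_add_right, polar_smul_right, polar_smul_right, polar_self', hz, hzη]; simp)⟩
    have h := W.smul_mem t⁻¹ (W.sub_mem (Submodule.mem_sup_left hm')
      (Submodule.mem_sup_right (Submodule.smul_mem _ s (Submodule.mem_span_singleton_self z))))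
    rwa [add_sub_cancel_left, smul_smul, inv_mul_cancel₀ ht, one_smul] at h
  have hfin := hzz'.finrank_pperp T.hB
  have h5 := T.five
  have hsub : pperp qB z z' ≤ W := by
    have h := eq_top_of_singular (q := qB.restrict (pperp qB z z')) (restrict_nondegenerate (hzz'.inf_perp T.hB))
      (by omega) (S := W.comap (pperp qB z z').subtype)
      (fun x hx => hin x hx (mem_pperp.1 x.2).1)
    intro x hx
    have : (⟨x, hx⟩ : pperp qB z z') ∈ W.comap (pperp qB z z').subtype := by rw [h]; trivial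
    exact this
  have hWle : finrank F W ≤ finrank F R₁ + 1 :=
    (Submodule.finrank_add_le_finrank_add_finrank _ _).trans (by rw [finrank_span_singleton hz0])
  have hlt2 : finrank F (pperp qB z z') < finrank F W := by
    refine Submodule.finrank_lt_finrank_of_lt (lt_of_le_of_ne hsub fun h => ?_)
    have hzW : z ∈ W := Submodule.mem_sup_right (Submodule.mem_span_singleton_self z)
    rw [← h, mem_pperp, polar_comm (⇑qB) z' z, hzz'.pair] at hzW
    exact one_ne_zero hzW.2
  omega

end TO

end Cfsg.Agent.H50.TensorO
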