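import Cfsg.Agent.H50.TensorO.Radical

/-!
An element carrying one line space to another is pure, and so is an element carrying one root element of the second
factor to a pure element.
-/

set_option autoImplicit false
set_option linter.unusedSectionVars false

namespace Cfsg.Agent.H50.TensorO

open QuadraticMap hiding sq
open Module Cfsg.Agent.H5

variable {F : Type*} [Field F] [Finite F]
  {V : Type*} [AddCommGroup V] [Module F V] [FiniteDimensional F V] [Finite V]
  {A : Type*} [AddCommGroup A] [Module F A] [FiniteDimensional F A] [Finite A]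
  {B : Type*} [AddCommGroup B] [Module F B] [FiniteDimensional F B] [Finite B]
  {Q : QuadraticForm F V} {qA : QuadraticForm F A} {qB : QuadraticForm F B} {M : Subgroup (orth Q)}
  {pu : A →ₗ[F] B →ₗ[F] V} {C : B →ₗ[F] V →ₗ[F] A}

/-- `y` carries the first line space onto the second one. -/
def Carries (pu : A →ₗ[F] B →ₗ[F] V) (y : orth Q) (z η z₁ η₁ : B) : Prop :=
  ∀ v, In2 pu z η v ↔ In2 pu z₁ η₁ ((y : V ≃ₗ[F] V) v)

theorem Carries.swap {y : orth Q} {z η z₁ η₁ : B} (h : Carries pu y z η z₁ η₁) : Carries pu y η z η₁ z₁ :=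
  fun v => ⟨fun hv => ((h v).1 hv.swap).swap, fun hv => ((h v).2 hv.swap).swap⟩

namespace TO

variable (T : TO Q qA qB M pu C)
include T

theorem exists_pair_one : ∃ a₀ a₁ : A, polar qA a₀ a₁ = 1 ∧ a₀ ≠ 0 := by
  obtain ⟨a₀, ha₀, -⟩ := exists_singular T.hA T.three
  obtain ⟨a₁, ha₁⟩ := exists_polar_eq_one T.hA ha₀
  exact ⟨a₀, a₁, ha₁, ha₀⟩

theorem exists_middle {z η z' η' : B} (L : Ln qB z η z' η') :
    ∃ w w' : B, polar qB z w = 0 ∧ polar qB η w = 0 ∧ polar qB z w' = 0 ∧ polar qB η w' = 0 ∧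
      polar qB w' w = 1 ∧ qB w ≠ 0 := by
  obtain ⟨e, he0, he⟩ := exists_singular T.hB (by have := T.five; omega)
  by_cases hall : ∀ x, polar qB z x = 0 → polar qB z' x = 0 → polar qB η x = 0 → polar qB η' x = 0 → qB x = 0
  · exfalso
    set W := pperp qB z z' ⊓ pperp qB η η'
    have hmem : ∀ x, x ∈ W ↔ polar qB z x = 0 ∧ polar qB z' x = 0 ∧ polar qB η x = 0 ∧ polar qB η' x = 0 := by
      intro x
      rw [Submodule.mem_inf, mem_pperp, mem_pperp, and_assoc]
    have hperp : W ≤ perp qB W := le_perp_of_forall_eq_zero fun x hx => by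
      obtain ⟨h1, h2, h3, h4⟩ := (hmem x).1 hx
      exact hall x h1 h2 h3 h4
    have hbot : W = ⊥ := by
      rw [eq_bot_iff]
      intro s hs
      refine (Submodule.mem_bot F).2 (T.hB.1 s fun w => ?_)
      have h1 := mem_perp.1 (hperp hs) _ ((hmem _).2 (T.proj_perp L w))
      obtain ⟨g1, g2, g3, g4⟩ := (hmem s).1 hs
      simp only [polar_sub_left, polar_smul_left, g1, g2, g3, g4, smul_zero, sub_zero] at h1
      rw [polarBilin_apply_apply, polar_comm]
      exact h1
    have h1 := L.hp.finrank_pperp T.hB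
    have h2 := L.hq.finrank_pperp T.hB
    have h3 := Submodule.finrank_sup_add_finrank_inf_eq (pperp qB z z') (pperp qB η η')
    have h4 := Submodule.finrank_le (pperp qB z z' ⊔ pperp qB η η')
    rw [show pperp qB z z' ⊓ pperp qB η η' = ⊥ from hbot, finrank_bot] at h3
    have := T.five
    omega
  push Not at hall
  obtain ⟨w, h1, -, h3, -, hw⟩ := hall
  refine ⟨w, (2 * qB w)⁻¹ • w, h1, h3, by rw [polar_smul_right, h1, smul_zero],
    by rw [polar_smul_right, h3, smul_zero], ?_, hw⟩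
  rw [polar_smul_left, polar_self', smul_eq_mul, inv_mul_cancel₀ (mul_ne_zero T.two hw)]

/-- One layer of a carried line goes to a layer. -/
theorem carries_layer (hg : Good qB M pu C) {z η z' η' z₁ η₁ z₁' η₁' : B} (L : Ln qB z η z' η')
    (L₁ : Ln qB z₁ η₁ z₁' η₁') {y : orth Q} (hy : y ∈ M) (hc : Carries pu y z η z₁ η₁) :
    ∃ (G : A →ₗ[F] A) (p : B), Function.Bijective G ∧ p ≠ 0 ∧ qB p = 0 ∧
      ∀ a, (y : V ≃ₗ[F] V) (pu a z) = pu (G a) p := by
  obtain ⟨w, w', hzw, hηw, hzw', hηw', hww', -⟩ := T.exists_middle L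
  have hzz : polar qB z z = 0 := by rw [polar_self', L.hp.left, mul_zero]
  obtain ⟨r, hr, -, hrp, hrn⟩ := T.exists_rtp (z := z) (u := w) L.hp.left hzw
  have hrS : ∀ v, In2 pu z η v → (r : V ≃ₗ[F] V) v = v := by
    rintro _ ⟨a, b, rfl⟩
    rw [map_add, hrp, hrp, hzz, L.zη, polar_comm (⇑qB) w z, hzw, polar_comm (⇑qB) w η, hηw]
    simp
  set k := y * r * y⁻¹ with hk
  have hkv : ∀ v, (k : V ≃ₗ[F] V) ((y : V ≃ₗ[F] V) v) = (y : V ≃ₗ[F] V) ((r : V ≃ₗ[F] V) v) := fun v => by
    rw [hk, orth_mul_apply (y * r), orth_inv_apply_apply, orth_mul_apply]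
  have hnil : ∀ v, Perp2 C z η v → nil qB pu C z w v = -pu (C w v) z := fun v hv => by
    rw [nil_apply, hv.1]; simp
  have hkS : ∀ v, In2 pu z₁ η₁ v → (k : V ≃ₗ[F] V) v = v := by
    intro v hv
    obtain ⟨v, rfl⟩ := (y : V ≃ₗ[F] V).surjective v
    rw [hkv, hrS v ((hc v).2 hv)]
  obtain ⟨K, hK⟩ := T.radical hg L₁ (M.mul_mem (M.mul_mem hy hr) (M.inv_mem hy)) hkS fun v hv => by
    obtain ⟨v, rfl⟩ := (y : V ≃ₗ[F] V).surjective v
    rw [hkv, hrn, hnil v ((T.perp2_map hc).2 hv), map_add, add_sub_cancel_left]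
    exact (hc _).1 ⟨-C w v, 0, by simp⟩
  obtain ⟨u, hu1, hu2, hu⟩ : ∃ u, polar qB z₁ u = 0 ∧ polar qB η₁ u = 0 ∧ K u - u ≠ 0 := by
    by_contra hall
    push Not at hall
    let π : V →ₗ[F] V := LinearMap.id - (pu.flip z₁').comp (C z₁) - (pu.flip η₁').comp (C η₁)
    have hπ : (k : V ≃ₗ[F] V).toLinearMap.comp π = π := by
      refine T.eq_of_pure fun a x => ?_
      set x0 := x - polar qB z₁ x • z₁' - polar qB η₁ x • η₁' with hx0
      have e : π (pu a x) = pu a x0 := by
        simp [π, hx0, T.C_pu, polar_comm (⇑qB) x z₁, polar_comm (⇑qB) x η₁]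
      have g1 : polar qB z₁ x0 = 0 := by
        simp [hx0, polar_sub_right, polar_smul_right, L₁.hp.pair, L₁.zη']
      have g2 : polar qB η₁ x0 = 0 := by
        simp [hx0, polar_sub_right, polar_smul_right, L₁.hq.pair, polar_comm (⇑qB) η₁ z₁', L₁.z'η]
      rw [LinearMap.comp_apply, LinearEquiv.coe_coe, e, hK, sub_eq_zero.1 (hall x0 g1 g2)]
    obtain ⟨a₀, a₁, ha, ha₀⟩ := T.exists_pair_one
    have hv : Perp2 C z η (pu a₀ w') := by
      constructor <;> simp [T.C_pu, polar_comm (⇑qB) w' z, polar_comm (⇑qB) w' η, hzw', hηw']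
    have hv' := (T.perp2_map hc).1 hv
    have hπv : π ((y : V ≃ₗ[F] V) (pu a₀ w')) = (y : V ≃ₗ[F] V) (pu a₀ w') := by simp [π, hv'.1, hv'.2]
    have h1 := LinearMap.congr_fun hπ ((y : V ≃ₗ[F] V) (pu a₀ w'))
    simp only [LinearMap.comp_apply, LinearEquiv.coe_coe, hπv] at h1
    rw [hkv, hrn, hnil _ hv, T.C_pu, hww', one_smul] at h1
    have h2 := (y : V ≃ₗ[F] V).injective h1
    rcases T.pu_eq_zero (neg_eq_zero.1 (add_eq_left.1 h2)) with h3 | h3
    · exact ha₀ h3
    · exact L.hp.ne_zero h3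
  set p := K u - u with hp
  have hinY : ∀ a, ∃ x, pu a p = (y : V ≃ₗ[F] V) (pu x z) := by
    intro a
    obtain ⟨v, hv⟩ := (y : V ≃ₗ[F] V).surjective (pu a u)
    have hpv : Perp2 C z η v := (T.perp2_map hc).2 (by
      rw [hv]; constructor <;> simp [T.C_pu, polar_comm (⇑qB) u z₁, polar_comm (⇑qB) u η₁, hu1, hu2])
    refine ⟨-C w v, ?_⟩
    have h1 := hkv v
    rw [hv, hK, hrn, hnil v hpv, map_add, hv] at h1
    rw [hp, map_sub, h1, add_sub_cancel_left, map_neg, map_neg, LinearMap.neg_apply, map_neg]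
  let σ : A →ₗ[F] A := (C z').comp ((((y⁻¹ : orth Q) : V ≃ₗ[F] V).toLinearMap).comp (pu.flip p))
  have hσ : ∀ a, pu a p = (y : V ≃ₗ[F] V) (pu (σ a) z) := by
    intro a
    obtain ⟨x, hx⟩ := hinY a
    have : σ a = x := by
      simp only [σ, LinearMap.comp_apply, LinearMap.flip_apply, LinearEquiv.coe_coe]
      rw [hx, orth_inv_apply_apply, T.C_pu, L.hp.pair, one_smul]
    rw [this, hx]
  have hinj : Function.Injective σ := by
    refine (injective_iff_map_eq_zero σ).2 fun a ha => ?_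
    have h1 := hσ a
    rw [ha, map_zero, LinearMap.zero_apply, map_zero] at h1
    exact (T.pu_eq_zero h1).resolve_right hu
  have hsurj : Function.Surjective σ := Finite.surjective_of_injective hinj
  refine ⟨(LinearEquiv.ofBijective σ ⟨hinj, hsurj⟩).symm.toLinearMap, p,
    (LinearEquiv.ofBijective σ ⟨hinj, hsurj⟩).symm.bijective, hu, ?_, fun a => ?_⟩
  · obtain ⟨a₀, a₁, ha, -⟩ := T.exists_pair_one
    have h1 : polar Q (pu a₀ p) (pu a₁ p) = 0 := by
      rw [hσ a₀, hσ a₁, orth_polar, T.form, hzz, mul_zero]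
    rw [T.form, ha, one_mul, polar_self'] at h1
    exact (mul_eq_zero.1 h1).resolve_left T.two
  · obtain ⟨b, rfl⟩ := hsurj a
    rw [← hσ b]
    congr
    exact ((LinearEquiv.ofBijective σ ⟨hinj, hsurj⟩).symm_apply_apply b).symm

/-- A carried line: both layers go to layers, with the same first factor. -/
theorem carries_both (hg : Good qB M pu C) {z η z' η' z₁ η₁ z₁' η₁' : B} (L : Ln qB z η z' η')
    (L₁ : Ln qB z₁ η₁ z₁' η₁') {y : orth Q} (hy : y ∈ M) (hc : Carries pu y z η z₁ η₁) :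
    ∃ (G : A →ₗ[F] A) (p r p' r' : B), Function.Bijective G ∧ Ln qB p r p' r' ∧ Carries pu y z η p r ∧
      (∀ a, (y : V ≃ₗ[F] V) (pu a z) = pu (G a) p) ∧ ∀ a, (y : V ≃ₗ[F] V) (pu a η) = pu (G a) r := by
  obtain ⟨G, p, hG, hp0, hp, hGp⟩ := T.carries_layer hg L L₁ hy hc
  obtain ⟨G', r, hG', hr0, hr, hGr⟩ := T.carries_layer hg L.symm L₁.symm hy hc.swap
  have hzη : z + η ≠ 0 ∧ qB (z + η) = 0 ∧ polar qB (z + η) η = 0 ∧ η ∉ Submodule.span F {z + η} := by
    refine ⟨fun h => ?_, ?_, ?_, fun h => ?_⟩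
    · have := congrArg (polar qB z') h
      simp [polar_add_right, polar_comm (⇑qB) z' z, L.hp.pair, L.z'η, polar_zero_right] at this
    · rw [QuadraticMap.map_add (⇑qB), L.hp.left, L.hq.left, L.zη]; simp
    · rw [polar_add_left, L.zη, polar_self', L.hq.left]; simp
    · obtain ⟨t, ht⟩ := Submodule.mem_span_singleton.1 h
      have h1 := congrArg (polar qB z') ht
      have h2 := congrArg (polar qB η') ht
      simp [polar_add_right, polar_smul_right, polar_comm (⇑qB) z' z, L.hp.pair, L.z'η, polar_comm (⇑qB) η' z,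
        L.zη', polar_comm (⇑qB) η' η, L.hq.pair] at h1 h2
      simp [h1] at h2
  obtain ⟨s', t', L'⟩ := exists_ln T.hB hzη.2.1 L.hq.left hzη.2.2.1 hzη.1 hzη.2.2.2
  have hc' : Carries pu y (z + η) η z₁ η₁ := fun v => by
    rw [← hc v]
    constructor
    · rintro ⟨a, b, rfl⟩
      exact ⟨a, a + b, by simp only [map_add, LinearMap.add_apply]; abel⟩
    · rintro ⟨a, b, rfl⟩
      exact ⟨a, b - a, by simp only [map_add, map_sub, LinearMap.sub_apply]; abel⟩
  obtain ⟨G'', s, hG'', hs0, -, hGs⟩ := T.carries_layer hg L' L₁ hy hc'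
  obtain ⟨a₀, a₁, ha, ha₀⟩ := T.exists_pair_one
  have hind : r ∉ Submodule.span F {p} := by
    intro h
    obtain ⟨t, ht⟩ := Submodule.mem_span_singleton.1 h
    obtain ⟨b, hb⟩ := hG.2 (t • G' a₀)
    have h1 : (y : V ≃ₗ[F] V) (pu a₀ η) = (y : V ≃ₗ[F] V) (pu b z) := by
      rw [hGr, hGp, hb, ← ht, map_smul, map_smul, LinearMap.smul_apply]
    have h2 := congrArg (C η') ((y : V ≃ₗ[F] V).injective h1)
    rw [T.C_pu, T.C_pu, L.hq.pair, one_smul, L.zη', zero_smul] at h2
    exact ha₀ h2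
  obtain ⟨i, hi1, hi2⟩ := exists_polar_pair T.hB hp0 hind 1 0
  obtain ⟨j, hj1, hj2⟩ := exists_polar_pair T.hB hp0 hind 0 1
  have heq : ∀ a, pu (G'' a) s = pu (G a) p + pu (G' a) r := fun a => by
    rw [← hGs, map_add, map_add, hGp, hGr]
  have hGi : ∀ a, polar qB s i • G'' a = G a := fun a => by
    have := congrArg (C i) (heq a)
    rw [map_add, T.C_pu, T.C_pu, T.C_pu, hi1, hi2, one_smul, zero_smul, add_zero] at this
    exact this
  have hGj : ∀ a, polar qB s j • G'' a = G' a := fun a => by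
    have := congrArg (C j) (heq a)
    rw [map_add, T.C_pu, T.C_pu, T.C_pu, hj1, hj2, one_smul, zero_smul, zero_add] at this
    exact this
  have hsi : polar qB s i ≠ 0 := by
    intro h0
    have := hGi a₀
    rw [h0, zero_smul] at this
    exact ha₀ (hG.1 (by rw [← this, map_zero]))
  have hsj : polar qB s j ≠ 0 := by
    intro h0
    have := hGj a₀
    rw [h0, zero_smul] at this
    exact ha₀ (hG'.1 (by rw [← this, map_zero]))
  set μ := polar qB s j / polar qB s i with hμ
  have hμ0 : μ ≠ 0 := div_ne_zero hsj hsi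
  have hG'G : ∀ a, G' a = μ • G a := fun a => by
    rw [← hGi, ← hGj, smul_smul, hμ, div_mul_cancel₀ _ hsi]
  set r₂ := μ • r with hr₂
  have hGr₂ : ∀ a, (y : V ≃ₗ[F] V) (pu a η) = pu (G a) r₂ := fun a => by
    rw [hGr, hG'G, hr₂, map_smul, map_smul, LinearMap.smul_apply]
  have hind₂ : r₂ ∉ Submodule.span F {p} := fun h => hind (by
    have := Submodule.smul_mem _ μ⁻¹ h
    rwa [hr₂, inv_smul_smul₀ hμ0] at this)
  have hpr : polar qB p r₂ = 0 := by
    obtain ⟨b₀, hb₀⟩ := hG.2 a₀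
    obtain ⟨b₁, hb₁⟩ := hG.2 a₁
    have h1 : polar Q (pu (G b₀) p) (pu (G b₁) r₂) = 0 := by
      rw [← hGp, ← hGr₂, orth_polar, T.form, L.zη, mul_zero]
    rwa [hb₀, hb₁, T.form, ha, one_mul] at h1
  obtain ⟨p', r', Lp⟩ := exists_ln T.hB hp (by rw [hr₂, QuadraticMap.map_smul, hr, smul_zero]) hpr hp0 hind₂
  refine ⟨G, p, r₂, p', r', hG, Lp, fun v => ⟨?_, ?_⟩, hGp, hGr₂⟩
  · rintro ⟨a, b, rfl⟩
    exact ⟨G a, G b, by rw [map_add, hGp, hGr₂]⟩
  · rintro ⟨a, b, hab⟩
    obtain ⟨a, rfl⟩ := hG.2 a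
    obtain ⟨b, rfl⟩ := hG.2 b
    exact ⟨a, b, (y : V ≃ₗ[F] V).injective (by rw [hab, map_add, hGp, hGr₂])⟩

/-- The image of a line space consisting of all `a ⊗ κ u` is a line space. -/
theorem carries_of_range {z η z' η' : B} (L : Ln qB z η z' η') {y : orth Q} (κ : B →ₗ[F] B) (D : V →ₗ[F] V)
    (hD : ∀ a u, D (pu a u) = pu a (κ u)) (hto : ∀ v, In2 pu z η v → ∃ x, (y : V ≃ₗ[F] V) v = D x)
    (hfrom : ∀ x, ∃ v, In2 pu z η v ∧ (y : V ≃ₗ[F] V) v = D x) :
    ∃ p r p' r', Ln qB p r p' r' ∧ Carries pu y z η p r := by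
  obtain ⟨a₀, a₁, ha, ha₀⟩ := T.exists_pair_one
  have hts : ∀ u u', polar qB (κ u) (κ u') = 0 := by
    intro u u'
    obtain ⟨v, ⟨a, b, rfl⟩, hv⟩ := hfrom (pu a₀ u)
    obtain ⟨v', ⟨a', b', rfl⟩, hv'⟩ := hfrom (pu a₁ u')
    have h1 : polar Q (D (pu a₀ u)) (D (pu a₁ u')) = 0 := by
      rw [← hv, ← hv', orth_polar]
      simp only [polar_add_left, polar_add_right, T.form, polar_self', L.hp.left, L.hq.left, L.zη,
        polar_comm (⇑qB) η z, mul_zero, add_zero]
    rwa [hD, hD, T.form, ha, one_mul] at h1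
  have hq : ∀ u, qB (κ u) = 0 := fun u => by
    have := hts u u
    rw [polar_self', mul_eq_zero] at this
    exact this.resolve_left T.two
  have key : ∀ p : B, p ≠ 0 → (∀ u, κ u ∈ Submodule.span F {p}) → False := by
    intro p hp0 hall
    obtain ⟨p', hp'⟩ := exists_polar_eq_one T.hB hp0
    have hDp : D = ((pu.flip p).comp (C p')).comp D := by
      refine T.eq_of_pure fun a u => ?_
      obtain ⟨t, ht⟩ := Submodule.mem_span_singleton.1 (hall u)
      rw [LinearMap.comp_apply, LinearMap.comp_apply, LinearMap.flip_apply, hD, ← ht, T.C_pu, polar_smul_left,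
        hp', smul_eq_mul, mul_one, map_smul, map_smul, LinearMap.smul_apply]
    let Φ : A × A →ₗ[F] A := (C p').comp ((y : V ≃ₗ[F] V).toLinearMap.comp ((pu.flip z).coprod (pu.flip η)))
    have hinj : Function.Injective Φ := by
      refine (injective_iff_map_eq_zero Φ).2 fun ab hab => ?_
      obtain ⟨x, hx⟩ := hto (pu ab.1 z + pu ab.2 η) ⟨_, _, rfl⟩
      have hx2 : D x = 0 := by
        rw [hDp, LinearMap.comp_apply, LinearMap.comp_apply, LinearMap.flip_apply, ← hx]
        simp only [Φ, LinearMap.comp_apply, LinearEquiv.coe_coe, LinearMap.coprod_apply, LinearMap.flip_apply] at hab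
        rw [hab, map_zero, LinearMap.zero_apply]
      rw [hx2, LinearEquiv.map_eq_zero_iff] at hx
      have h1 := congrArg (C z') hx
      have h2 := congrArg (C η') hx
      simp [T.C_pu, L.hp.pair, polar_comm (⇑qB) η z', L.z'η, L.zη', L.hq.pair] at h1 h2
      exact Prod.ext h1 h2
    have := LinearMap.finrank_le_finrank_of_injective hinj
    rw [Module.finrank_prod] at this
    have := T.three
    omega
  obtain ⟨u₁, hu₁⟩ : ∃ u, κ u ≠ 0 := by
    by_contra hall
    push Not at hall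
    exact key z L.hp.ne_zero fun u => by rw [hall]; exact zero_mem _
  obtain ⟨u₂, hu₂⟩ : ∃ u, κ u ∉ Submodule.span F {κ u₁} := by
    by_contra hall
    push Not at hall
    exact key _ hu₁ hall
  obtain ⟨p', r', Lp⟩ := exists_ln T.hB (hq u₁) (hq u₂) (hts _ _) hu₁ hu₂
  let g : A × A →ₗ[F] A × A :=
    ((C z').prod (C η')).comp ((((y⁻¹ : orth Q) : V ≃ₗ[F] V).toLinearMap).comp
      ((pu.flip (κ u₁)).coprod (pu.flip (κ u₂))))
  have hg : ∀ ab : A × A, pu ab.1 (κ u₁) + pu ab.2 (κ u₂) =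
      (y : V ≃ₗ[F] V) (pu (g ab).1 z + pu (g ab).2 η) := by
    rintro ⟨a, b⟩
    obtain ⟨v, ⟨x, x', rfl⟩, hv⟩ := hfrom (pu a u₁ + pu b u₂)
    rw [map_add D, hD, hD] at hv
    have : g (a, b) = (x, x') := by
      simp only [g, LinearMap.comp_apply, LinearMap.coprod_apply, LinearMap.flip_apply, LinearEquiv.coe_coe]
      rw [← hv, orth_inv_apply_apply]
      simp [T.C_pu, L.hp.pair, polar_comm (⇑qB) η z', L.z'η, L.zη', L.hq.pair]
    rw [this, hv]
  have hinj : Function.Injective g := by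
    refine (injective_iff_map_eq_zero g).2 fun ab hab => ?_
    have h0 := hg ab
    rw [hab] at h0
    simp only [Prod.fst_zero, Prod.snd_zero, map_zero, LinearMap.zero_apply, add_zero] at h0
    have h1 := congrArg (C p') h0
    have h2 := congrArg (C r') h0
    simp [T.C_pu, Lp.hp.pair, Lp.hq.pair, Lp.zη', polar_comm (⇑qB) (κ u₂) p', Lp.z'η] at h1 h2
    exact Prod.ext h1 h2
  refine ⟨_, _, p', r', Lp, fun v => ⟨?_, ?_⟩⟩
  · rintro ⟨a, b, rfl⟩
    obtain ⟨ab, hab⟩ := Finite.surjective_of_injective hinj (a, b)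
    exact ⟨ab.1, ab.2, by rw [hg ab, hab]⟩
  · rintro ⟨a, b, hab⟩
    exact ⟨(g (a, b)).1, (g (a, b)).2, (y : V ≃ₗ[F] V).injective (by rw [hab, ← hg (a, b)])⟩

/-- From a carried line to the lines through one of its points. -/
theorem carries_step (hg : Good qB M pu C) {z η z' η' z₁ η₁ z₁' η₁' : B} (L : Ln qB z η z' η')
    (L₁ : Ln qB z₁ η₁ z₁' η₁') {y : orth Q} (hy : y ∈ M) (hc : Carries pu y z η z₁ η₁) {x : B} (hx : qB x = 0)
    (hzx : polar qB z x = 0) (hind : x ∉ Submodule.span F {z}) :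
    ∃ x' x'' p r p' r', Ln qB z x x' x'' ∧ Ln qB p r p' r' ∧ Carries pu y z x p r := by
  obtain ⟨G, p, r, p', r', hG, Lp, hc', hGp, hGr⟩ := T.carries_both hg L L₁ hy hc
  obtain ⟨x', x'', Lx⟩ := exists_ln T.hB L.hp.left hx hzx L.hp.ne_zero hind
  obtain ⟨k₀, hk₀, -, hk₀p, hk₀n⟩ := T.exists_rtp (z := z) (u := x) L.hp.left hzx
  set c := polar qB x η with hc₀
  obtain ⟨s, hs, hst, hsp, hsn⟩ := T.exists_rtp (z := p) (u := c • r') Lp.hp.left
    (by rw [polar_smul_right, Lp.zη', smul_zero])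
  set k := y * k₀ * y⁻¹ with hk
  have hkv : ∀ v, (k : V ≃ₗ[F] V) ((y : V ≃ₗ[F] V) v) = (y : V ≃ₗ[F] V) ((k₀ : V ≃ₗ[F] V) v) := fun v => by
    rw [hk, orth_mul_apply (y * k₀), orth_inv_apply_apply, orth_mul_apply]
  have hzz : polar qB z z = 0 := by rw [polar_self', L.hp.left, mul_zero]
  have hpp : polar qB p p = 0 := by rw [polar_self', Lp.hp.left, mul_zero]
  have hkS : ∀ v, In2 pu p r v → (k : V ≃ₗ[F] V) v = (s : V ≃ₗ[F] V) v := by
    intro v hv
    obtain ⟨v, rfl⟩ := (y : V ≃ₗ[F] V).surjective v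
    obtain ⟨a, b, rfl⟩ := (hc' v).2 hv
    rw [hkv]
    simp only [map_add]
    rw [hk₀p, hk₀p, hGp, hGr, hsp, hsp, hzz, L.zη,
      polar_comm (⇑qB) x z, hzx, ← hc₀, hpp, Lp.zη, polar_smul_left, polar_smul_left, polar_comm (⇑qB) r' p, Lp.zη',
      polar_comm (⇑qB) r' r, Lp.hq.pair]
    simp [hGp, hGr]
  have hsP : ∀ u, Perp2 C p r u → In2 pu p r ((s : V ≃ₗ[F] V) u - u) := fun u hu =>
    ⟨-C (c • r') u, 0, by rw [hsn, nil_apply, hu.1]; simp⟩
  have hsS : ∀ v, In2 pu p r v → In2 pu p r ((s : V ≃ₗ[F] V) v) := by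
    rintro _ ⟨a, b, rfl⟩
    refine ⟨a - c • b, b, ?_⟩
    rw [map_add, hsp, hsp, hpp, Lp.zη, polar_smul_left, polar_smul_left, polar_comm (⇑qB) r' p, Lp.zη',
      polar_comm (⇑qB) r' r, Lp.hq.pair]
    simp
    abel
  have hsS' : ∀ v, In2 pu p r v → In2 pu p r (((s⁻¹ : orth Q) : V ≃ₗ[F] V) v) := by
    rintro _ ⟨a, b, rfl⟩
    refine ⟨a + c • b, b, ?_⟩
    apply (s : V ≃ₗ[F] V).injective
    rw [orth_apply_inv_apply, map_add, hsp, hsp, hpp, Lp.zη, polar_smul_left, polar_smul_left,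
      polar_comm (⇑qB) r' p, Lp.zη', polar_comm (⇑qB) r' r, Lp.hq.pair]
    simp
  have hRT : RightType pu (s⁻¹ * k) := by
    refine T.radical hg Lp (M.mul_mem (M.inv_mem hs) (M.mul_mem (M.mul_mem hy hk₀) (M.inv_mem hy)))
      (fun v hv => ?_) fun v hv => ?_
    · rw [orth_mul_apply, hkS v hv, orth_inv_apply_apply]
    · obtain ⟨u, rfl⟩ := (y : V ≃ₗ[F] V).surjective v
      have hu : Perp2 C z η u := (T.perp2_map hc').2 hv
      have e : nil qB pu C z x u = -pu (C x u) z := by rw [nil_apply, hu.1]; simp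
      have hm : In2 pu p r ((y : V ≃ₗ[F] V) (nil qB pu C z x u)) := by
        rw [e]; exact (hc' _).1 ⟨-C x u, 0, by simp⟩
      rw [orth_mul_apply, hkv, hk₀n, map_add, map_add]
      have hinv : In2 pu p r (((s⁻¹ : orth Q) : V ≃ₗ[F] V) ((y : V ≃ₗ[F] V) u) - (y : V ≃ₗ[F] V) u) := by
        set w := ((s⁻¹ : orth Q) : V ≃ₗ[F] V) ((y : V ≃ₗ[F] V) u) with hw
        have hyw : (y : V ≃ₗ[F] V) u = (s : V ≃ₗ[F] V) w := by rw [hw, orth_apply_inv_apply]
        have hwp : Perp2 C p r w := (T.perp2_map (fun v => ⟨hsS v, fun h => by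
          have := hsS' _ h
          rwa [orth_inv_apply_apply] at this⟩)).2 (hyw ▸ hv)
        obtain ⟨a, b, hab⟩ := hsP w hwp
        exact ⟨-a, -b, by
          rw [hyw, ← neg_sub, hab]; simp only [map_neg, LinearMap.neg_apply]; abel⟩
      have := hinv.add (hsS' _ hm)
      convert this using 1
      abel
  have hk' : RightType pu k := by
    have := hst.mul hRT
    rwa [mul_inv_cancel_left] at this
  obtain ⟨K, hK⟩ := hk'
  let D : V →ₗ[F] V := (k : V ≃ₗ[F] V).toLinearMap - LinearMap.id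
  have hto : ∀ v, In2 pu z x v → ∃ u, (y : V ≃ₗ[F] V) v = D u := by
    intro v hv
    obtain ⟨a, b, rfl⟩ := hv
    refine ⟨(y : V ≃ₗ[F] V) (pu b x' - pu a x''), ?_⟩
    simp only [D, LinearMap.sub_apply, LinearEquiv.coe_coe, LinearMap.id_apply]
    rw [hkv, hk₀n, map_add ((y : orth Q) : V ≃ₗ[F] V) (pu b x' - pu a x''), add_sub_cancel_left, nil_apply]
    congr 1
    simp [T.C_pu, polar_comm (⇑qB) x' z, Lx.hp.pair, Lx.z'η, polar_comm (⇑qB) x'' z, Lx.zη',
      polar_comm (⇑qB) x'' x, Lx.hq.pair, hx]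
    abel
  have hfrom : ∀ u, ∃ v, In2 pu z x v ∧ (y : V ≃ₗ[F] V) v = D u := by
    intro w
    obtain ⟨v, rfl⟩ := (y : V ≃ₗ[F] V).surjective w
    refine ⟨nil qB pu C z x v, ⟨-C x v, C z v, ?_⟩, ?_⟩
    · rw [nil_apply, hx]; simp; abel
    · simp only [D, LinearMap.sub_apply, LinearEquiv.coe_coe, LinearMap.id_apply]
      rw [hkv, hk₀n, map_add, add_sub_cancel_left]
  obtain ⟨q₁, q₂, q₁', q₂', Lq, hcq⟩ := T.carries_of_range Lx (y := y) (K - LinearMap.id) D
    (fun a u => by simp [D, hK]) hto hfrom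
  exact ⟨x', x'', q₁, q₂, q₁', q₂', Lx, Lq, hcq⟩

/-- An element carrying a line space onto another one is pure. -/
theorem pure_of_carries (hg : Good qB M pu C) {z η z' η' z₁ η₁ z₁' η₁' : B} (L : Ln qB z η z' η')
    (L₁ : Ln qB z₁ η₁ z₁' η₁') {y : orth Q} (hy : y ∈ M) (hc : Carries pu y z η z₁ η₁) : Pure pu y := by
  obtain ⟨G, p, -, -, -, hG, -, -, hGp, -⟩ := T.carries_both hg L L₁ hy hc
  obtain ⟨a₀, a₁, ha, ha₀⟩ := T.exists_pair_one
  let P : Submodule F B :=
    { carrier := {w | ∃ w', ∀ a, (y : V ≃ₗ[F] V) (pu a w) = pu (G a) w'}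
      add_mem' := by
        rintro w₁ w₂ ⟨w₁', h1⟩ ⟨w₂', h2⟩
        exact ⟨w₁' + w₂', fun a => by rw [map_add, map_add, h1, h2, map_add]⟩
      zero_mem' := ⟨0, fun a => by rw [map_zero, map_zero, map_zero]⟩
      smul_mem' := by
        rintro t w ⟨w', h⟩
        exact ⟨t • w', fun a => by rw [map_smul, map_smul, h, map_smul]⟩ }
  have hzP : z ∈ P := ⟨p, hGp⟩
  -- good points
  have step : ∀ w x, w ∈ P → w ≠ 0 → (∃ η z' η' p r p' r', Ln qB w η z' η' ∧ Ln qB p r p' r' ∧
      Carries pu y w η p r) → qB x = 0 → polar qB w x = 0 → x ∉ Submodule.span F {w} →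
      x ∈ P ∧ ∃ η z' η' p r p' r', Ln qB x η z' η' ∧ Ln qB p r p' r' ∧ Carries pu y x η p r := by
    rintro w x ⟨w', hw'⟩ hw0 ⟨η, z', η', p, r, p', r', L, Lp, hc⟩ hx hwx hind
    obtain ⟨x', x'', s, t, s', t', Lx, Ls, hcx⟩ := T.carries_step hg L Lp hy hc hx hwx hind
    obtain ⟨G', s₁, t₁, s₁', t₁', hG', Ls₁, hc₁, hGs, hGt⟩ := T.carries_both hg Lx Ls hy hcx
    refine ⟨?_, ?_⟩
    · obtain ⟨i, hi⟩ := exists_polar_eq_one T.hB Ls₁.hp.ne_zero
      have hG'G : ∀ a, G' a = polar qB w' i • G a := fun a => by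
        have h1 := congrArg (C i) ((hGs a).symm.trans (hw' a))
        rwa [T.C_pu, T.C_pu, hi, one_smul] at h1
      exact ⟨polar qB w' i • t₁, fun a => by
        rw [hGt, hG'G, map_smul, map_smul, LinearMap.smul_apply]⟩
    · exact ⟨w, x'', x', t₁, s₁, t₁', s₁', Lx.symm, Ls₁.symm, hc₁.swap⟩
  have hzline : ∃ η₀ z₀ e₀ p r p' r', Ln qB z η₀ z₀ e₀ ∧ Ln qB p r p' r' ∧ Carries pu y z η₀ p r :=
    ⟨η, z', η', z₁, η₁, z₁', η₁', L, L₁, hc⟩
  have hall : ∀ x, qB x = 0 → x ∈ P := by
    intro x hx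
    by_cases hzx : polar qB z x = 0
    · by_cases hm : x ∈ Submodule.span F {z}
      · obtain ⟨t, rfl⟩ := Submodule.mem_span_singleton.1 hm
        exact P.smul_mem t hzP
      · exact (step z x hzP L.hp.ne_zero hzline hx hzx hm).1
    · have hpr : HypPair qB z ((polar qB z x)⁻¹ • x) :=
        ⟨L.hp.left, by rw [QuadraticMap.map_smul, hx, smul_zero],
          by rw [polar_smul_right, smul_eq_mul, inv_mul_cancel₀ hzx]⟩
      obtain ⟨e, he0, he⟩ := exists_singular (Q := qB.restrict (pperp qB z ((polar qB z x)⁻¹ • x)))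
        (restrict_nondegenerate (hpr.inf_perp T.hB))
        (by have := hpr.finrank_pperp T.hB; have := T.five; omega)
      obtain ⟨h1, h2⟩ := mem_pperp.1 e.2
      have he0' : (e : B) ≠ 0 := fun h => he0 (Subtype.ext h)
      have hez : (e : B) ∉ Submodule.span F {z} := fun hm => by
        obtain ⟨t, ht⟩ := Submodule.mem_span_singleton.1 hm
        rw [← ht, polar_smul_right, polar_smul_left, polar_comm (⇑qB) x z, smul_eq_mul, smul_eq_mul,
          inv_mul_cancel₀ hzx, mul_one] at h2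
        rw [h2, zero_smul] at ht
        exact he0' ht.symm
      obtain ⟨heP, hline⟩ := step z e hzP L.hp.ne_zero hzline he h1 hez
      refine (step e x heP he0' hline hx ?_ fun hm => ?_).1
      · rw [polar_smul_left, smul_eq_mul, mul_eq_zero, inv_eq_zero] at h2
        rw [polar_comm]
        exact h2.resolve_left hzx
      · obtain ⟨t, ht⟩ := Submodule.mem_span_singleton.1 hm
        exact hzx (by rw [← ht, polar_smul_right, h1, smul_zero])
  have htop : ∀ w, w ∈ P := by
    intro w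
    have hd := L.hp.decomp w
    have h3 := L.hp.singular_lift hd
    have h4 := hall _ h3.1
    have hzP' : z' ∈ P := hall _ L.hp.right
    have e : w - polar qB z' w • z - polar qB z w • z' ∈ P := by
      have := P.sub_mem h4 (P.add_mem hzP (P.smul_mem (-qB (w - polar qB z' w • z - polar qB z w • z')) hzP'))
      rwa [add_sub_cancel_left] at this
    have := P.add_mem (P.add_mem e (P.smul_mem (polar qB z w) hzP')) (P.smul_mem (polar qB z' w) hzP)
    convert this using 1
    abel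
  have hGa : G a₀ ≠ 0 := fun h => ha₀ (hG.1 (by rw [h, map_zero]))
  obtain ⟨j, hj⟩ := exists_polar_eq_one T.hA hGa
  have hinj : LinearMap.ker (pu (G a₀)) = ⊥ := by
    refine LinearMap.ker_eq_bot'.2 fun w hw => (T.pu_eq_zero hw).resolve_left hGa
  obtain ⟨li, hli⟩ := (pu (G a₀)).exists_leftInverse_of_injective hinj
  refine ⟨G, li.comp ((y : V ≃ₗ[F] V).toLinearMap.comp (pu a₀)), fun a w => ?_⟩
  obtain ⟨w', hw'⟩ := htop w
  have e2 : li (pu (G a₀) w') = w' := LinearMap.congr_fun hli w'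
  rw [LinearMap.comp_apply, LinearMap.comp_apply, LinearEquiv.coe_coe, hw', hw', e2]

/-- An element carrying a root element of the second factor to a pure element is pure. -/
theorem pure_of_conj_root (hg : Good qB M pu C) {z η z' η' : B} (L : Ln qB z η z' η') {y r : orth Q} (hy : y ∈ M)
    (hr : ∀ v, (r : V ≃ₗ[F] V) v = v + (pu (C z v) η - pu (C η v) z)) (hk : Pure pu (y * r * y⁻¹)) :
    Pure pu y := by
  set k := y * r * y⁻¹ with hkdef
  obtain ⟨G, K, hGK⟩ := hk
  obtain ⟨a₀, a₁, ha, ha₀⟩ := T.exists_pair_one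
  have hηz : polar qB η z = 0 := by rw [polar_comm]; exact L.zη
  let N : V →ₗ[F] V := (pu.flip η).comp (C z) - (pu.flip z).comp (C η)
  have hN : ∀ v, N v = pu (C z v) η - pu (C η v) z := fun v => by simp [N]
  have hkv : ∀ v, (k : V ≃ₗ[F] V) ((y : V ≃ₗ[F] V) v) = (y : V ≃ₗ[F] V) v + (y : V ≃ₗ[F] V) (N v) := fun v => by
    rw [hkdef, orth_mul_apply (y * r), orth_inv_apply_apply, orth_mul_apply, hr, ← hN, map_add]
  set D : V →ₗ[F] V := (k : V ≃ₗ[F] V).toLinearMap - LinearMap.id with hDdef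
  have hD : ∀ v, D ((y : V ≃ₗ[F] V) v) = (y : V ≃ₗ[F] V) (N v) := fun v => by simp [hDdef, hkv]
  have hN2 : ∀ v, N (N v) = 0 := fun v => by
    have hq : polar qB z z = 0 ∧ polar qB η η = 0 := by simp [polar_self', L.hp.left, L.hq.left]
    rw [hN, hN]
    simp [T.C_pu, hq.1, hq.2, L.zη, hηz]
  have hD2 : ∀ v, D (D v) = 0 := fun v => by
    obtain ⟨v, rfl⟩ := (y : V ≃ₗ[F] V).surjective v
    rw [hD, hD, hN2, map_zero]
  have hsq : ∀ a w, pu (G (G a)) (K (K w)) - (2 : F) • pu (G a) (K w) + pu a w = 0 := by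
    intro a w
    have := hD2 (pu a w)
    simp only [hDdef, LinearMap.sub_apply, LinearEquiv.coe_coe, LinearMap.id_apply, hGK, map_sub] at this
    rw [two_smul]
    linear_combination (norm := module) this
  have hGinj : Function.Injective G := by
    refine (injective_iff_map_eq_zero G).2 fun a ha' => ?_
    obtain ⟨u, hu⟩ : ∃ u : B, u ≠ 0 := ⟨z, L.hp.ne_zero⟩
    have h1 := hGK a u
    rw [ha', map_zero, LinearMap.zero_apply, LinearEquiv.map_eq_zero_iff] at h1
    exact (T.pu_eq_zero h1).resolve_right hu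
  have hKinj : Function.Injective K := by
    refine (injective_iff_map_eq_zero K).2 fun u hu => ?_
    have h1 := hGK a₀ u
    rw [hu, map_zero, LinearEquiv.map_eq_zero_iff] at h1
    exact (T.pu_eq_zero h1).resolve_left ha₀
  by_cases hKs : ∀ w, K w ∈ Submodule.span F {w}
  swap
  · -- the first factor is a scalar
    push Not at hKs
    obtain ⟨w, hw⟩ := hKs
    have hw0 : w ≠ 0 := fun h => hw (by rw [h, map_zero]; exact zero_mem _)
    obtain ⟨i, hi1, hi2⟩ := exists_polar_pair T.hB hw0 hw 0 1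
    obtain ⟨g, hgs⟩ : ∃ g : F, ∀ a, G a = g • a := by
      set t := polar qB (K (K w)) i
      have h1 : ∀ a, t • G (G a) = (2 : F) • G a := fun a => by
        have := congrArg (C i) (hsq a w)
        rw [map_add, map_sub, map_smul, T.C_pu, T.C_pu, T.C_pu, hi1, hi2, map_zero, zero_smul, one_smul, add_zero,
          sub_eq_zero] at this
        exact this
      have hsurj : Function.Surjective G := Finite.surjective_of_injective hGinj
      have ht : t ≠ 0 := fun h0 => by
        have := h1 a₀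
        rw [h0, zero_smul, eq_comm, smul_eq_zero] at this
        exact ha₀ (hGinj (by rw [this.resolve_left T.two, map_zero]))
      refine ⟨t⁻¹ * 2, fun b => ?_⟩
      obtain ⟨a, rfl⟩ := hsurj b
      rw [mul_smul, ← h1 a, inv_smul_smul₀ ht]
    obtain ⟨p, r, p', r', Lp, hc⟩ := T.carries_of_range L (y := y) (g • K - LinearMap.id) D
      (fun a u => by
        simp only [hDdef, LinearMap.sub_apply, LinearEquiv.coe_coe, LinearMap.id_apply, hGK, hgs,
          LinearMap.smul_apply, map_sub, map_smul])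
      (fun v hv => by
        obtain ⟨a, b, rfl⟩ := hv
        refine ⟨(y : V ≃ₗ[F] V) (pu b z' - pu a η'), ?_⟩
        rw [hD, hN]
        congr 1
        simp [T.C_pu, polar_comm (⇑qB) z' z, L.hp.pair, polar_comm (⇑qB) η' z, L.zη', L.z'η,
          polar_comm (⇑qB) η' η, L.hq.pair]
        abel)
      (fun x => by
        obtain ⟨v, rfl⟩ := (y : V ≃ₗ[F] V).surjective x
        exact ⟨N v, ⟨-C η v, C z v, by rw [hN]; simp; abel⟩, (hD v).symm⟩)
    exact T.pure_of_carries hg L Lp hy hc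
  exfalso
  obtain ⟨c, hc⟩ : ∃ c : F, ∀ w, K w = c • w := by
    choose c hc using fun w => Submodule.mem_span_singleton.1 (hKs w)
    refine ⟨c z, fun w => ?_⟩
    obtain ⟨t, rfl⟩ | hm := Classical.em (∃ t : F, t • z = w)
    · rw [map_smul, ← hc z, smul_comm]
    · obtain ⟨i, hi1, hi2⟩ := exists_polar_pair T.hB L.hp.ne_zero
        (fun h => hm (Submodule.mem_span_singleton.1 h)) 1 0
      obtain ⟨j, hj1, hj2⟩ := exists_polar_pair T.hB L.hp.ne_zero
        (fun h => hm (Submodule.mem_span_singleton.1 h)) 0 1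
      have e : c (z + w) • (z + w) = c z • z + c w • w := by rw [hc, map_add, ← hc z, ← hc w]
      have e1 := congrArg (fun v => polar qB v i) e
      have e2 := congrArg (fun v => polar qB v j) e
      simp only [polar_add_left, polar_smul_left, hi1, hi2, hj1, hj2, smul_eq_mul, mul_one, mul_zero, add_zero,
        zero_add] at e1 e2
      rw [← hc w, ← e2, e1]
  let H : A →ₗ[F] A := c • G - LinearMap.id
  have hH : ∀ a w, D (pu a w) = pu (H a) w := fun a w => by
    simp [hDdef, H, hGK, hc]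
  obtain ⟨x, hx⟩ : ∃ a, H a ≠ 0 := by
    by_contra hall
    push Not at hall
    have h0 : D = 0 := T.eq_of_pure fun a w => by rw [hH, hall, map_zero, LinearMap.zero_apply, LinearMap.zero_apply]
    have h1 := hD (pu a₀ z')
    rw [h0, LinearMap.zero_apply, eq_comm, LinearEquiv.map_eq_zero_iff, hN, T.C_pu, T.C_pu,
      polar_comm (⇑qB) z' z, L.hp.pair, L.z'η, one_smul, zero_smul, map_zero, LinearMap.zero_apply, sub_zero] at h1
    rcases T.pu_eq_zero h1 with h2 | h2
    · exact ha₀ h2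
    · exact L.hq.ne_zero h2
  set x' := H x with hx'
  have hinto : ∀ a (u : B), ∃ b b' : A, pu (H a) u = (y : V ≃ₗ[F] V) (pu b z + pu b' η) := by
    intro a u
    obtain ⟨v, hv⟩ := (y : V ≃ₗ[F] V).surjective (pu a u)
    refine ⟨-C η v, C z v, ?_⟩
    rw [← hH, ← hv, hD, hN]
    congr 1
    simp
    abel
  have hrank : ∀ a, H a ∈ Submodule.span F {x'} := by
    intro a
    by_contra hm
    obtain ⟨i, hi1, hi2⟩ := exists_polar_pair T.hA hx hm 1 0
    obtain ⟨j, hj1, hj2⟩ := exists_polar_pair T.hA hx hm 0 1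
    let Φ : B × B →ₗ[F] A × A :=
      ((C z').prod (C η')).comp ((((y⁻¹ : orth Q) : V ≃ₗ[F] V).toLinearMap).comp
        ((pu x').coprod (pu (H a))))
    have hinj : Function.Injective Φ := by
      refine (injective_iff_map_eq_zero Φ).2 fun uu huu => ?_
      obtain ⟨b₁, b₁', h1⟩ := hinto x uu.1
      obtain ⟨b₂, b₂', h2⟩ := hinto a uu.2
      simp only [Φ, LinearMap.comp_apply, LinearMap.coprod_apply, LinearEquiv.coe_coe] at huu
      rw [hx', h1, h2, map_add, orth_inv_apply_apply, orth_inv_apply_apply] at huu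
      simp [T.C_pu, L.hp.pair, L.zη', polar_comm (⇑qB) η z', L.z'η, L.hq.pair, Prod.ext_iff] at huu
      have h0 : pu x' uu.1 + pu (H a) uu.2 = 0 := by
        rw [hx', h1, h2, ← map_add]
        convert map_zero (y : V ≃ₗ[F] V)
        have e : ∀ p q r s : A, pu p z + pu q η + (pu r z + pu s η) = pu (p + r) z + pu (q + s) η := by
          intro p q r s; simp only [map_add, LinearMap.add_apply]; abel
        rw [e, huu.1, huu.2]
        simp
      have hu : ∀ (k : A) (u : B), polar qA x' k = 1 → polar qA (H a) k = 0 → ∀ w, polar qB uu.1 w = 0 := by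
        intro k u hk1 hk2 w
        have := congrArg (fun v => polar Q v (pu k w)) h0
        simpa [polar_add_left, T.form, hk1, hk2] using this
      have e1 : uu.1 = 0 := T.Bext fun w => by rw [polar_zero_left]; exact hu i uu.1 hi1 hi2 w
      have e2 : uu.2 = 0 := T.Bext fun w => by
        have := congrArg (fun v => polar Q v (pu j w)) h0
        simpa [polar_add_left, T.form, hj1, hj2, polar_zero_left] using this
      exact Prod.ext e1 e2
    have := LinearMap.finrank_le_finrank_of_injective hinj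
    rw [Module.finrank_prod, Module.finrank_prod] at this
    have := T.lt
    omega
  choose φ hφ using fun a => Submodule.mem_span_singleton.1 (hrank a)
  have hcG : ∀ a, c • G a = a + φ a • x' := fun a => by
    rw [hφ a]; simp [H]
  have hiso : ∀ a b, polar qA (a + φ a • x') (b + φ b • x') = polar qA a b := by
    intro a b
    have hk : ∀ a w, (k : V ≃ₗ[F] V) (pu a w) = pu (a + φ a • x') w := fun a w => by
      rw [hGK, hc, map_smul, ← LinearMap.smul_apply, ← map_smul, hcG]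
    have h1 := orth_polar k (pu a z) (pu b z')
    rw [hk, hk, T.form, T.form, L.hp.pair, mul_one, mul_one] at h1
    exact h1
  have hφx : φ x' = 0 := by
    have h1 := hD2 (pu x z)
    rw [hH, hH, ← hx', ← hφ x'] at h1
    rcases T.pu_eq_zero h1 with h2 | h2
    · exact (smul_eq_zero.1 h2).resolve_right hx
    · exact absurd h2 L.hp.ne_zero
  have hφxne : φ x = 1 := by
    have := hφ x
    rw [← hx'] at this
    exact smul_left_injective F hx (this.trans (one_smul F x').symm)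
  have hqx : qA x' = 0 := by
    have h1 := hiso x' x
    rw [hφx, zero_smul, add_zero, hφxne, one_smul, polar_add_right, add_eq_left, polar_self',
      mul_eq_zero] at h1
    exact h1.resolve_left T.two
  have hor : ∀ a, φ a * polar qA x' a = 0 := fun a => by
    have h1 := hiso a a
    rw [polar_add_left, polar_add_right, polar_add_right, polar_smul_left, polar_smul_left, polar_smul_right,
      polar_smul_right, polar_self' qA x', hqx, polar_comm (⇑qA) a x'] at h1
    simp only [smul_eq_mul] at h1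
    exact (mul_eq_zero.1 (show (2 : F) * (φ a * polar qA x' a) = 0 by linear_combination h1)).resolve_left T.two
  obtain ⟨b, hb⟩ := exists_polar_eq_one T.hA hx
  have hφb : φ b = 0 := by simpa [hb] using hor b
  have hφadd : φ (x + b) = φ x + φ b := by
    have := hφ (x + b)
    rw [map_add, ← hφ x, ← hφ b, ← add_smul] at this
    exact smul_left_injective F hx this
  have hxx : polar qA x' x = 0 := by simpa [hφxne] using hor x
  have := hor (x + b)
  rw [hφadd, hφxne, hφb, add_zero, one_mul, polar_add_right, hxx, hb, zero_add] at this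
  exact one_ne_zero this

end TO

end Cfsg.Agent.H50.TensorO
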