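import Cfsg.Agent.H5.RootClosure

/-!
Fixed points of a root group on spaces of endomorphisms of an orthogonal space, and: a self-adjoint endomorphism
commuting with all its conjugates under the commutator group is scalar.
-/

set_option autoImplicit false
set_option linter.unusedSectionVars false

namespace Cfsg.Agent.H50.TensorO

open QuadraticMap hiding sq
open Module Cfsg.Agent.H5

variable {F : Type*} [Field F] [Finite F]
  {A : Type*} [AddCommGroup A] [Module F A] [FiniteDimensional F A] [Finite A] {qA : QuadraticForm F A}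

/-- Conjugation of endomorphisms by an isometry. -/
def cj (g : orth qA) : (A →ₗ[F] A) →ₗ[F] (A →ₗ[F] A) := ((g : A ≃ₗ[F] A).conj).toLinearMap

theorem cj_apply (g : orth qA) (P : A →ₗ[F] A) (x : A) :
    cj g P ((g : A ≃ₗ[F] A) x) = (g : A ≃ₗ[F] A) (P x) := by
  simp [cj, LinearEquiv.conj_apply]

theorem cj_eq_iff (g : orth qA) {P R : A →ₗ[F] A} :
    cj g P = R ↔ ∀ x, R ((g : A ≃ₗ[F] A) x) = (g : A ≃ₗ[F] A) (P x) := by
  constructor
  · rintro rfl x
    exact cj_apply g P x
  · intro h
    refine LinearMap.ext fun x => ?_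
    obtain ⟨x, rfl⟩ := (g : A ≃ₗ[F] A).surjective x
    rw [cj_apply, h]

theorem cj_cj (g h : orth qA) (P : A →ₗ[F] A) : cj g (cj h P) = cj (g * h) P := by
  refine ((cj_eq_iff _).2 fun x => ?_).symm
  rw [orth_mul_apply, orth_mul_apply, cj_apply, cj_apply]

theorem cj_one (P : A →ₗ[F] A) : cj (1 : orth qA) P = P := (cj_eq_iff _).2 fun _ => rfl

theorem cj_id (g : orth qA) : cj g (LinearMap.id : A →ₗ[F] A) = LinearMap.id := (cj_eq_iff _).2 fun _ => rfl

theorem eich_pow {u y : A} (hu : qA u = 0) (hy : polar qA u y = 0) (n : ℕ) :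
    eich qA u y ^ n = eich qA u (n • y) := by
  induction n with
  | zero => rw [pow_zero, zero_smul, eich_zero]
  | succ n ih =>
    rw [pow_succ, ih, succ_nsmul, eich_mul hu ?_ hy]
    rw [← Nat.cast_smul_eq_nsmul F, polar_smul_right, hy, smul_zero]

/-- A root group fixes, modulo fixed endomorphisms, some member of every larger invariant space. -/
theorem exists_fixed_mod {u : A} (hu : qA u = 0) (Z P : Submodule F (A →ₗ[F] A)) (hZP : Z ≤ P)
    (hne : ∃ R ∈ P, R ∉ Z) (hZ : ∀ y, polar qA u y = 0 → ∀ R ∈ Z, cj (eich qA u y) R = R)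
    (hP : ∀ y, polar qA u y = 0 → ∀ R ∈ P, cj (eich qA u y) R ∈ P) :
    ∃ R ∈ P, R ∉ Z ∧ ∀ y, polar qA u y = 0 → cj (eich qA u y) R - R ∈ Z := by
  classical
  let Inv : Submodule F (A →ₗ[F] A) → Prop := fun W =>
    ∀ y, polar qA u y = 0 → ∀ R ∈ W, cj (eich qA u y) R ∈ W
  haveI : Finite (A →ₗ[F] A) := Finite.of_injective (fun f : A →ₗ[F] A => (f : A → A)) DFunLike.coe_injective
  haveI : Finite (Submodule F (A →ₗ[F] A)) :=
    Finite.of_injective (fun W : Submodule F (A →ₗ[F] A) => (W : Set (A →ₗ[F] A))) SetLike.coe_injective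
  obtain ⟨W, hW⟩ := (Set.toFinite {W | Z ≤ W ∧ W ≤ P ∧ (∃ R ∈ W, R ∉ Z) ∧ Inv W}).exists_minimal
    ⟨P, hZP, le_rfl, hne, hP⟩
  obtain ⟨⟨hZW, hWP, ⟨R, hRW, hRZ⟩, hinv⟩, hmin⟩ := hW
  refine ⟨R, hWP hRW, hRZ, fun y hy => ?_⟩
  set g := eich qA u y with hg
  set T : (A →ₗ[F] A) →ₗ[F] (A →ₗ[F] A) := cj g - LinearMap.id with hT
  have hT' : ∀ R, T R = cj g R - R := fun R => by simp [hT]
  set W' := Z ⊔ W.map T with hW'
  have hTW : ∀ R ∈ W, T R ∈ W := fun R hR => by rw [hT']; exact W.sub_mem (hinv y hy R hR) hR
  have hW'W : W' ≤ W := sup_le hZW (by rintro _ ⟨R, hR, rfl⟩; exact hTW R hR)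
  have hinv' : Inv W' := by
    intro s hs R hR
    obtain ⟨R₁, h1, _, ⟨R₂, h2, rfl⟩, rfl⟩ := Submodule.mem_sup.1 hR
    rw [map_add]
    refine W'.add_mem (Submodule.mem_sup_left (by rwa [hZ s hs R₁ h1])) (Submodule.mem_sup_right ?_)
    refine ⟨cj (eich qA u s) R₂, hinv s hs R₂ h2, ?_⟩
    rw [hT', hT', map_sub, cj_cj, cj_cj, hg, eich_comm hu hs hy]
  by_cases hall : ∀ R' ∈ W', R' ∈ Z
  · have := hall (T R) (Submodule.mem_sup_right ⟨R, hRW, rfl⟩)
    rwa [hT'] at this
  exfalso
  push Not at hall
  obtain ⟨R', hR', hR'Z⟩ := hall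
  have heq : W ≤ W' := hmin ⟨le_sup_left, hW'W.trans hWP, ⟨R', hR', hR'Z⟩, hinv'⟩ hW'W
  have hpow : ∀ n, W ≤ Z ⊔ W.map (T ^ n) := by
    intro n
    induction n with
    | zero => exact fun R hR => Submodule.mem_sup_right ⟨R, hR, rfl⟩
    | succ n ih =>
      intro R hR
      obtain ⟨R₁, h1, _, ⟨R₂, h2, rfl⟩, rfl⟩ := Submodule.mem_sup.1 (heq hR)
      refine (Z ⊔ W.map (T ^ (n + 1))).add_mem (Submodule.mem_sup_left h1) ?_
      obtain ⟨R₃, h3, _, ⟨R₄, h4, rfl⟩, e⟩ := Submodule.mem_sup.1 (ih h2)
      rw [← e, map_add]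
      refine (Z ⊔ W.map (T ^ (n + 1))).add_mem ?_ (Submodule.mem_sup_right ⟨R₄, h4, ?_⟩)
      · rw [hT', hZ y hy R₃ h3, sub_self]; exact zero_mem _
      · rw [pow_succ']; rfl
  obtain ⟨p, hp⟩ := CharP.exists F
  haveI := hp
  haveI : Fact p.Prime := ⟨(CharP.char_is_prime_or_zero F p).resolve_right fun h0 => by
    subst h0; exact CharP.char_ne_zero_of_finite F 0 rfl⟩
  haveI : Nontrivial (A →ₗ[F] A) := ⟨⟨R, 0, fun h => hRZ (by rw [h]; exact Z.zero_mem)⟩⟩
  haveI : CharP (Module.End F (A →ₗ[F] A)) p :=
    charP_of_injective_algebraMap (FaithfulSMul.algebraMap_injective F (Module.End F (A →ₗ[F] A))) p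
  have hg1 : (cj g) ^ p = (1 : Module.End F (A →ₗ[F] A)) := by
    have key : ∀ n : ℕ, ∀ R, ((cj g) ^ n : Module.End F (A →ₗ[F] A)) R = cj (g ^ n) R := by
      intro n R
      induction n with
      | zero => rw [pow_zero, pow_zero, cj_one]; rfl
      | succ n ih => rw [pow_succ', Module.End.mul_apply, ih, cj_cj, ← pow_succ']
    refine LinearMap.ext fun R => ?_
    rw [key, hg, eich_pow hu hy, ← Nat.cast_smul_eq_nsmul F, CharP.cast_eq_zero, zero_smul, eich_zero, cj_one]
    rfl
  have hTp : (T ^ p : Module.End F (A →ₗ[F] A)) = 0 := by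
    change ((cj g : Module.End F (A →ₗ[F] A)) - 1) ^ p = 0
    rw [sub_pow_char_of_commute (p := p) (Commute.one_right _), one_pow, hg1, sub_self]
  have := hpow p hRW
  rw [hTp, Submodule.map_zero, sup_bot_eq] at this
  exact hRZ this

/-- An endomorphism commuting with the linear parts of a root group: its shape. -/
theorem shape_of_commute (hA : (polarBilin qA).Nondegenerate) {u v : A} (h : HypPair qA u v) {R : A →ₗ[F] A}
    (hR : ∀ y, polar qA u y = 0 → ∀ x,
      R (polar qA u x • y - polar qA y x • u) = polar qA u (R x) • y - polar qA y (R x) • u)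
    (h3 : 3 ≤ finrank F A) :
    ∃ α : F, R u = α • u ∧ polar qA u (R v) = α ∧ (∀ y, polar qA u y = 0 → ∃ β : F, R y = α • y + β • u) ∧
      ∀ y, polar qA u y = 0 → polar qA v y = 0 → R y = α • y - polar qA y (R v) • u := by
  obtain ⟨y₀, hy₀, hy₀n⟩ := exists_anisotropic (h.inf_perp hA) (by have := h.finrank_pperp hA; omega)
  obtain ⟨hy₀u, hy₀v⟩ := mem_pperp.1 hy₀
  have hu : qA u = 0 := h.left
  have e0 : ∀ y, polar qA u y = 0 → polar qA u (R u) • y = polar qA y (R u) • u := by
    intro y hy
    have := hR y hy u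
    rw [polar_self', hu, mul_zero, zero_smul, polar_comm (⇑qA) y u, hy, zero_smul, sub_zero, map_zero] at this
    exact sub_eq_zero.1 this.symm
  have hγ : polar qA u (R u) = 0 := by
    by_contra hne
    have h1 := congrArg (polar qA y₀) (e0 y₀ hy₀u)
    rw [polar_smul_right, polar_smul_right, polar_comm (⇑qA) y₀ u, hy₀u, smul_zero, smul_eq_mul,
      mul_eq_zero] at h1
    rcases h1 with h1 | h1
    · exact hne h1
    · exact hy₀n (by
        rw [polar_self', mul_eq_zero] at h1
        rcases h1 with h1 | h1
        · exact absurd h1 (fun h2 => hy₀n (by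
            have := e0 y₀ hy₀u
            have h3 := congrArg (polar qA v) this
            rw [polar_smul_right, polar_smul_right, hy₀v, smul_zero, polar_comm (⇑qA) v u, h.pair, smul_eq_mul,
              mul_one] at h3
            rw [← h3, zero_smul] at this
            rw [(smul_eq_zero.1 this).resolve_left hne, QuadraticMap.map_zero]))
        · exact h1)
  have hperp : ∀ y, polar qA u y = 0 → polar qA y (R u) = 0 := fun y hy => by
    have := e0 y hy
    rw [hγ, zero_smul] at this
    exact (smul_eq_zero.1 this.symm).resolve_right h.ne_zero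
  set α := polar qA v (R u) with hα
  have hext : ∀ x : A, (∀ z, polar qA z x = 0) → x = 0 := fun x hx => hA.1 x fun z => by
    rw [polarBilin_apply_apply, polar_comm]; exact hx z
  have hRu : R u = α • u := by
    rw [← sub_eq_zero]
    refine hext _ fun z => ?_
    have h1 := hperp (z - polar qA u z • v) (by
      rw [polar_sub_right, polar_smul_right, h.pair, smul_eq_mul, mul_one, sub_self])
    rw [polar_sub_left, polar_smul_left, ← hα, smul_eq_mul] at h1
    rw [polar_sub_right, polar_smul_right, polar_comm (⇑qA) z u, smul_eq_mul]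
    linear_combination h1
  have hy1 : ∀ w, polar qA u w = 0 → polar qA u (R w) = 0 ∧
      ∀ z, polar qA u z = 0 → polar qA z (R w) = α * polar qA z w := by
    intro w hw
    have e1 : ∀ y, polar qA u y = 0 →
        polar qA u (R w) • y = (polar qA y (R w) - α * polar qA y w) • u := by
      intro y hy
      have := hR y hy w
      rw [hw, zero_smul, zero_sub, map_neg, map_smul, hRu, smul_smul] at this
      rw [eq_comm, sub_eq_iff_eq_add] at this
      rw [this]
      module
    have h0 : polar qA u (R w) = 0 := by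
      by_contra hne
      have := e1 y₀ hy₀u
      have h3 := congrArg (polar qA v) this
      rw [polar_smul_right, polar_smul_right, hy₀v, smul_zero, polar_comm (⇑qA) v u, h.pair, smul_eq_mul,
        mul_one] at h3
      rw [← h3, zero_smul] at this
      exact hy₀n (by rw [(smul_eq_zero.1 this).resolve_left hne, QuadraticMap.map_zero])
    refine ⟨h0, fun z hz => ?_⟩
    have := e1 z hz
    rw [h0, zero_smul] at this
    exact sub_eq_zero.1 ((smul_eq_zero.1 this.symm).resolve_right h.ne_zero)
  have hy2 : ∀ w, polar qA u w = 0 → ∃ β : F, R w = α • w + β • u := by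
    intro w hw
    obtain ⟨h0, h1⟩ := hy1 w hw
    refine ⟨polar qA v (R w - α • w), ?_⟩
    rw [← sub_eq_zero]
    refine hext _ fun z => ?_
    set z' := z - polar qA u z • v with hz'
    have hz0 : polar qA u z' = 0 := by
      rw [hz', polar_sub_right, polar_smul_right, h.pair, smul_eq_mul, mul_one, sub_self]
    have h2 := h1 z' hz0
    rw [hz', polar_sub_left, polar_sub_left, polar_smul_left, polar_smul_left] at h2
    simp only [polar_sub_right, polar_add_right, polar_smul_right, smul_eq_mul, polar_comm (⇑qA) z u] at h2 ⊢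
    linear_combination h2
  have key : ∀ y, polar qA u y = 0 → polar qA v y = 0 →
      R y = polar qA u (R v) • y - polar qA y (R v) • u := by
    intro y hy hyv
    have := hR y hy v
    rwa [h.pair, one_smul, polar_comm (⇑qA) y v, hyv, zero_smul, sub_zero] at this
  have hαv : polar qA u (R v) = α := by
    obtain ⟨β, hβ⟩ := hy2 y₀ hy₀u
    have h1 := key y₀ hy₀u hy₀v
    rw [hβ] at h1
    have h2 := congrArg (polar qA y₀) h1
    simp only [polar_add_right, polar_sub_right, polar_smul_right, smul_eq_mul, polar_comm (⇑qA) y₀ u, hy₀u,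
      mul_zero, add_zero, sub_zero, polar_self'] at h2
    have h20 : (2 : F) * qA y₀ ≠ 0 ∨ (2 : F) = 0 := by
      by_cases h2' : (2 : F) = 0
      · exact Or.inr h2'
      · exact Or.inl (mul_ne_zero h2' hy₀n)
    rcases h20 with h20 | h20
    · exact (mul_right_cancel₀ h20 h2).symm
    · have h3 : (α - polar qA u (R v)) • y₀ = (-(β + polar qA y₀ (R v))) • u := by
        linear_combination (norm := module) h1
      by_contra hne
      have h4 := congrArg (polar qA v) h3
      rw [polar_smul_right, polar_smul_right, hy₀v, smul_zero, polar_comm (⇑qA) v u, h.pair, smul_eq_mul,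
        mul_one] at h4
      rw [← h4, zero_smul] at h3
      exact hy₀n (by rw [(smul_eq_zero.1 h3).resolve_left (sub_ne_zero.2 (Ne.symm hne)),
        QuadraticMap.map_zero])
  exact ⟨α, hRu, hαv, hy2, fun y hy hyv => by rw [key y hy hyv, hαv]⟩

/-- A self-adjoint endomorphism commuting with all its conjugates is scalar. -/
theorem scalar_of_commute (hA : (polarBilin qA).Nondegenerate) (h2 : (2 : F) ≠ 0) (h3 : 3 ≤ finrank F A)
    (hbig : 5 ≤ Nat.card F ∨ 4 ≤ finrank F A) (hcomm : ∀ u y, eich qA u y ∈ commutator (orth qA))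
    {P : A →ₗ[F] A} (hP : ∀ x x', polar qA (P x) x' = polar qA x (P x'))
    (hc : ∀ g ∈ commutator (orth qA), ∀ x, P (cj g P x) = cj g P (P x)) :
    ∃ c : F, ∀ x, P x = c • x := by
  classical
  by_contra hns
  push Not at hns
  set Z : Submodule F (A →ₗ[F] A) := Submodule.span F {LinearMap.id}
  set S : Set (A →ₗ[F] A) := insert LinearMap.id {R | ∃ g ∈ commutator (orth qA), cj g P = R} with hS
  set W : Submodule F (A →ₗ[F] A) := Submodule.span F S
  have hcomm2 : ∀ R ∈ W, ∀ R' ∈ W, ∀ x, R (R' x) = R' (R x) := by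
    have hgen : ∀ R ∈ S, ∀ R' ∈ S, ∀ x, R (R' x) = R' (R x) := by
      rintro R (rfl | ⟨g, hg, rfl⟩) R' (rfl | ⟨g', hg', rfl⟩) x
      · rfl
      · rfl
      · rfl
      · obtain ⟨x, rfl⟩ := (g : A ≃ₗ[F] A).surjective x
        have hk : g⁻¹ * g' ∈ commutator (orth qA) := mul_mem (inv_mem hg) hg'
        have e : cj g' P = cj g (cj (g⁻¹ * g') P) := by rw [cj_cj, mul_inv_cancel_left]
        rw [e, cj_apply, cj_apply, cj_apply, cj_apply, hc _ hk x]
    intro R hR
    induction hR using Submodule.span_induction with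
    | mem R hRS =>
      intro R' hR'
      induction hR' using Submodule.span_induction with
      | mem R' hR'S => exact hgen R hRS R' hR'S
      | zero => simp
      | add a b _ _ ha hb => intro x; simp [ha, hb]
      | smul t a _ ha => intro x; simp [ha]
    | zero => simp
    | add a b _ _ ha hb => intro R' hR' x; simp [ha R' hR', hb R' hR']
    | smul t a _ ha => intro R' hR' x; simp [ha R' hR']
  have hsa : ∀ R ∈ W, ∀ x x', polar qA (R x) x' = polar qA x (R x') := by
    intro R hR
    induction hR using Submodule.span_induction with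
    | mem R hRS =>
      rcases hRS with rfl | ⟨g, -, rfl⟩
      · intro x x'; rfl
      · intro x x'
        obtain ⟨x, rfl⟩ := (g : A ≃ₗ[F] A).surjective x
        obtain ⟨x', rfl⟩ := (g : A ≃ₗ[F] A).surjective x'
        rw [cj_apply, cj_apply, orth_polar, orth_polar, hP]
    | zero => intro x x'; simp [polar_zero_left, polar_zero_right]
    | add a b _ _ ha hb => intro x x'; simp [polar_add_left, polar_add_right, ha, hb]
    | smul t a _ ha => intro x x'; simp [polar_smul_left, polar_smul_right, ha]
  obtain ⟨u, hu0, hu⟩ := exists_singular hA (by omega)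
  obtain ⟨v, huv⟩ := exists_hypPair hA hu0 hu
  have hZid : ∀ R ∈ Z, ∃ c : F, R = c • LinearMap.id := fun R hR => by
    obtain ⟨c, rfl⟩ := Submodule.mem_span_singleton.1 hR
    exact ⟨c, rfl⟩
  obtain ⟨R, hRW, hRZ, hfix⟩ := exists_fixed_mod (qA := qA) hu Z W
    ((Submodule.span_singleton_le_iff_mem _ _).2 (Submodule.subset_span (Or.inl rfl)))
    ⟨P, Submodule.subset_span (Or.inr ⟨1, one_mem _, cj_one P⟩), fun hPZ => by
      obtain ⟨c, hc'⟩ := hZid P hPZ
      obtain ⟨x, hx⟩ := hns c
      exact hx (by rw [hc']; rfl)⟩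
    (fun y _ R hR => by
      obtain ⟨c, rfl⟩ := hZid R hR
      rw [map_smul, cj_id])
    (fun y _ R hR => by
      induction hR using Submodule.span_induction with
      | mem R hRS =>
        refine Submodule.subset_span ?_
        rcases hRS with rfl | ⟨g, hg, rfl⟩
        · exact Or.inl (cj_id _)
        · exact Or.inr ⟨eich qA u y * g, mul_mem (hcomm u y) hg, (cj_cj _ _ _).symm⟩
      | zero => rw [map_zero]; exact zero_mem _
      | add a b _ _ ha hb => rw [map_add]; exact add_mem ha hb
      | smul t a _ ha => rw [map_smul]; exact Submodule.smul_mem _ t ha)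
  choose c hcy using fun y hy => hZid _ (hfix y hy)
  have hcR : ∀ y (hy : polar qA u y = 0), cj (eich qA u y) R = R + c y hy • LinearMap.id := fun y hy => by
    rw [← hcy y hy]; abel
  have hadd : ∀ y (hy : polar qA u y = 0) z (hz : polar qA u z = 0) (hyz : polar qA u (y + z) = 0),
      c (y + z) hyz = c y hy + c z hz := by
    intro y hy z hz hyz
    have e := hcR (y + z) hyz
    rw [← eich_mul hu hy hz, ← cj_cj, hcR z hz, map_add, map_smul, cj_id, hcR y hy, add_assoc,
      ← add_smul] at e
    have e2 := LinearMap.congr_fun (add_left_cancel e) u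
    simp only [LinearMap.smul_apply, LinearMap.id_apply] at e2
    exact (smul_left_injective F hu0 e2).symm
  have rel : ∀ y (hy : polar qA u y = 0) x,
      polar qA u (R x) • y - polar qA y (R x) • u - R (polar qA u x • y - polar qA y x • u) =
        c y hy • (x - (qA y * polar qA u x) • u) := by
    intro y hy x
    have hn : polar qA u (-y) = 0 := by rw [polar_neg_right, hy, neg_zero]
    have h0' : polar qA u (0 : A) = 0 := by rw [polar_zero_right]
    have hc0 : c 0 h0' = 0 := by
      have := hadd 0 h0' 0 h0' (by rw [add_zero, h0'])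
      simp only [add_zero] at this
      linear_combination -this
    have hneg : c (-y) hn = - c y hy := by
      have := hadd y hy (-y) hn (by rw [add_neg_cancel, h0'])
      simp only [add_neg_cancel, hc0] at this
      linear_combination -this
    have e1 := cj_apply (eich qA u y) R x
    have e2 := cj_apply (eich qA u (-y)) R x
    rw [hcR y hy, eich_apply hu hy, eich_apply hu hy] at e1
    rw [hcR (-y) hn, eich_apply hu hn, eich_apply hu hn, hneg] at e2
    simp only [LinearMap.add_apply, LinearMap.smul_apply, LinearMap.id_apply, map_add, map_sub, map_smul,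
      polar_neg_left, QuadraticMap.map_neg] at e1 e2
    simp only [smul_neg, neg_smul, sub_neg_eq_add, map_neg] at e2
    simp only [map_sub, map_smul]
    have e3 : (2 : F) • (polar qA u (R x) • y - polar qA y (R x) • u - (polar qA u x • R y - polar qA y x • R u)) =
        (2 : F) • (c y hy • (x - (qA y * polar qA u x) • u)) := by
      linear_combination (norm := module) e2 - e1
    exact smul_right_injective A h2 e3
  have hc0 : ∀ y (hy : polar qA u y = 0), qA y ≠ 0 → c y hy = 0 := by
    intro y hy hq
    have hRu : ∀ z (hz : polar qA u z = 0), qA z ≠ 0 → c z hz = - polar qA z (R u) ∧ polar qA u (R u) = 0 := by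
      intro z hz hzq
      have := rel z hz u
      rw [polar_self', hu, mul_zero, zero_smul, polar_comm (⇑qA) z u, hz, zero_smul, sub_zero, map_zero, sub_zero,
        mul_zero, zero_smul, sub_zero] at this
      have h1 := congrArg (polar qA z) this
      simp only [polar_sub_right, polar_smul_right, polar_comm (⇑qA) z u, hz, smul_eq_mul, mul_zero, sub_zero,
        polar_self', mul_eq_zero, h2, hzq, or_false, false_or] at h1
      rw [h1, zero_smul, zero_sub, ← neg_smul] at this
      exact ⟨(smul_left_injective F hu0 this).symm, h1⟩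
    rcases hbig with hq5 | h4
    · haveI := Fintype.ofFinite F
      obtain ⟨s, hs⟩ : ∃ s : F, s ∉ ({0, 1, -1} : Finset F) := by
        by_contra hall
        push Not at hall
        have := Finset.card_le_card (show (Finset.univ : Finset F) ⊆ {0, 1, -1} from fun x _ => hall x)
        have h3' : ({0, 1, -1} : Finset F).card ≤ 3 := Finset.card_le_three
        rw [Finset.card_univ, ← Nat.card_eq_fintype_card] at this
        omega
      simp only [Finset.mem_insert, Finset.mem_singleton, not_or] at hs
      obtain ⟨hs0, hs1, hs2⟩ := hs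
      have hsy : polar qA u (s • y) = 0 := by rw [polar_smul_right, hy, smul_zero]
      have hsq : qA (s • y) ≠ 0 := by
        rw [QuadraticMap.map_smul, smul_eq_mul]; exact mul_ne_zero (mul_ne_zero hs0 hs0) hq
      have hlin : c (s • y) hsy = s * c y hy := by
        rw [(hRu _ hsy hsq).1, (hRu y hy hq).1, polar_smul_left, smul_eq_mul, mul_neg]
      have e1 := rel y hy v
      have e2 := rel (s • y) hsy v
      rw [hlin, huv.pair] at e2
      rw [huv.pair] at e1
      simp only [polar_smul_left, QuadraticMap.map_smul, smul_eq_mul, map_sub, map_smul] at e1 e2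
      have e3 : (c y hy * qA y * (s * (1 - s * s))) • u = 0 := by
        linear_combination (norm := module) s • e1 - e2
      have h1 : 1 - s * s ≠ 0 := fun h0 => by
        rcases mul_self_eq_one_iff.1 (sub_eq_zero.1 h0).symm with h' | h'
        · exact hs1 h'
        · exact hs2 h'
      simpa [hq, hs0, h1, hu0] using e3
    · have hd := finrank_perp_add hA (Submodule.span F {u} ⊔ Submodule.span F {y})
      have hyu : y ∉ Submodule.span F {u} := fun hm => by
        obtain ⟨t, rfl⟩ := Submodule.mem_span_singleton.1 hm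
        exact hq (by rw [QuadraticMap.map_smul, hu, smul_zero])
      rw [Submodule.finrank_sup_span_singleton hyu, finrank_span_singleton hu0] at hd
      by_contra hne
      have hle : perp qA (Submodule.span F {u} ⊔ Submodule.span F {y}) ≤ Submodule.span F {u} := by
        intro x hx
        rw [perp_sup, Submodule.mem_inf, mem_perp_span, mem_perp_span] at hx
        have := rel y hy x
        rw [hx.1, hx.2, zero_smul, zero_smul, sub_zero, map_zero, sub_zero, mul_zero, zero_smul, sub_zero] at this
        have hx2 : x = (c y hy)⁻¹ • (polar qA u (R x) • y - polar qA y (R x) • u) := by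
          rw [this, inv_smul_smul₀ hne]
        have h1 := congrArg (polar qA y) hx2
        simp only [hx.2, polar_smul_right, polar_sub_right, polar_comm (⇑qA) y u, hy, smul_eq_mul, mul_zero,
          sub_zero, polar_self'] at h1
        have h5 : polar qA u (R x) = 0 := by simpa [hne, h2, hq] using h1.symm
        rw [hx2, h5, zero_smul, zero_sub]
        exact Submodule.smul_mem _ _ (neg_mem (Submodule.smul_mem _ _ (Submodule.mem_span_singleton_self u)))
      have := Submodule.finrank_mono hle
      rw [finrank_span_singleton hu0] at this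
      omega
  obtain ⟨y₀, hy₀, hy₀n⟩ := exists_anisotropic (huv.inf_perp hA) (by have := huv.finrank_pperp hA; omega)
  obtain ⟨hy₀u, hy₀v⟩ := mem_pperp.1 hy₀
  have hczero : ∀ y (hy : polar qA u y = 0), c y hy = 0 := by
    intro y hy
    by_cases hq : qA y = 0
    swap
    · exact hc0 y hy hq
    have split : ∀ z, polar qA u z = 0 → qA z ≠ 0 → qA (y + z) ≠ 0 → c y hy = 0 := by
      intro z hz hzq hyzq
      have hyz : polar qA u (y + z) = 0 := by rw [polar_add_right, hy, hz, add_zero]
      have := hadd y hy z hz hyz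
      rw [hc0 _ hyz hyzq, hc0 z hz hzq, add_zero] at this
      exact this.symm
    by_cases h1 : qA (y + y₀) = 0
    · refine split (-y₀) (by rw [polar_neg_right, hy₀u, neg_zero]) (by rwa [QuadraticMap.map_neg]) ?_
      intro h3'
      rw [QuadraticMap.map_add (⇑qA), hq, zero_add] at h1
      rw [QuadraticMap.map_add (⇑qA), hq, zero_add, QuadraticMap.map_neg, polar_neg_right] at h3'
      exact hy₀n ((mul_eq_zero.1 (show (2 : F) * qA y₀ = 0 by linear_combination h1 + h3')).resolve_left h2)
    · exact split y₀ hy₀u hy₀n h1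
  obtain ⟨α, hRu, hαv, -, hshape⟩ := shape_of_commute hA huv (R := R) (fun y hy x => by
    have := rel y hy x
    rw [hczero y hy, zero_smul] at this
    exact (sub_eq_zero.1 this).symm) h3
  set d := R v - α • v with hd
  have hD : ∀ y, polar qA u y = 0 → polar qA v y = 0 → polar qA y (R v) = 0 ∧ R y = α • y := by
    intro y hy hyv
    have h1 := hshape y hy hyv
    have h5 := hsa R hRW y v
    rw [h1] at h5
    simp only [polar_sub_left, polar_smul_left, polar_comm (⇑qA) y v, hyv, huv.pair, smul_eq_mul, mul_zero,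
      mul_one, zero_sub] at h5
    have h6 : polar qA y (R v) = 0 :=
      (mul_eq_zero.1 (show (2 : F) * polar qA y (R v) = 0 by linear_combination -h5)).resolve_left h2
    exact ⟨h6, by rw [h1, h6, zero_smul, sub_zero]⟩
  obtain ⟨t, hRform⟩ : ∃ t : F, ∀ x, R x = α • x + (t * polar qA u x) • u := by
    refine ⟨polar qA v (R v), fun x => ?_⟩
    have hx := mem_pperp.1 (huv.decomp x)
    have hdv : R v = α • v + polar qA v (R v) • u := by
      rw [← sub_eq_zero]
      refine hA.1 _ fun z => ?_
      rw [polarBilin_apply_apply, polar_comm]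
      have hz := mem_pperp.1 (huv.decomp z)
      have hz' := (hD _ hz.1 hz.2).1
      simp only [polar_sub_left, polar_smul_left, smul_eq_mul, hαv] at hz'
      simp only [polar_sub_right, polar_add_right, polar_smul_right, smul_eq_mul, polar_comm (⇑qA) z v,
        polar_comm (⇑qA) z u]
      linear_combination hz'
    have h1 := (hD _ hx.1 hx.2).2
    rw [map_sub, map_sub, map_smul, map_smul, hRu, hdv] at h1
    linear_combination (norm := module) h1
  have ht : t ≠ 0 := fun h0 => hRZ (Submodule.mem_span_singleton.2 ⟨α, LinearMap.ext fun x => by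
    rw [hRform x, h0, zero_mul, zero_smul, add_zero]; rfl⟩)
  set g := eich qA v y₀ with hg
  have hgu : polar qA u ((g : A ≃ₗ[F] A) u) = -qA y₀ := by
    rw [hg, eich_apply huv.right hy₀v, polar_sub_right, polar_sub_right, polar_add_right, polar_smul_right,
      polar_smul_right, polar_smul_right, polar_self', hu, hy₀u, polar_comm (⇑qA) v u, huv.pair,
      polar_comm (⇑qA) y₀ u, hy₀u, smul_eq_mul, smul_eq_mul, smul_eq_mul]
    ring
  have hgW : cj g R ∈ W := by
    clear hRform hfix hcR rel hadd hczero hc0 hshape hD hRZ hRu hαv hcy hd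
    induction hRW using Submodule.span_induction with
    | mem R hRS =>
      refine Submodule.subset_span ?_
      rcases hRS with rfl | ⟨k, hk, rfl⟩
      · exact Or.inl (cj_id _)
      · exact Or.inr ⟨g * k, mul_mem (hcomm v y₀) hk, (cj_cj _ _ _).symm⟩
    | zero => rw [map_zero]; exact zero_mem _
    | add a b _ _ ha hb => rw [map_add]; exact add_mem ha hb
    | smul s a _ ha => rw [map_smul]; exact Submodule.smul_mem _ s ha
  have hform2 : ∀ x, cj g R x = α • x + (t * polar qA ((g : A ≃ₗ[F] A) u) x) • (g : A ≃ₗ[F] A) u := by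
    intro x
    obtain ⟨x, rfl⟩ := (g : A ≃ₗ[F] A).surjective x
    rw [cj_apply, hRform, map_add, map_smul, map_smul, orth_polar]
  have key := hcomm2 R hRW _ hgW u
  rw [hRu, map_smul, hform2 u, hRform] at key
  simp only [polar_add_right, polar_smul_right, polar_self', hu, mul_zero, zero_add, hgu,
    polar_comm (⇑qA) ((g : A ≃ₗ[F] A) u) u, smul_eq_mul] at key
  have k2 : (t * t * (qA y₀ * qA y₀)) • u = 0 := by linear_combination (norm := module) key
  simp [ht, hy₀n, hu0] at k2

end Cfsg.Agent.H50.TensorO
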