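import Cfsg.Agent.H50.TensorO.Basic
import Cfsg.Agent.H50.TensorO.Scalar

/-!
When no layer is present, the radical of the stabiliser of a line space meets the group in pure elements.
-/

set_option autoImplicit false
set_option linter.unusedSectionVars false

namespace Cfsg.Agent.H50.TensorO

open QuadraticMap hiding sq
open Module Cfsg.Agent.H5

variable {F : Type*} [Field F] [Finite F]
  {V : Type*} [AddCommGroup V] [Module F V] [FiniteDimensional F V] [Finite V]
  {A : Type*} [AddCommGroup A] [Module F A] [FiniteDimensional F A] [Finite A]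
  {B : Type*} [AddCommGroup B] [Module F B] [FiniteDimensional F B] [Finite B]
  {Q : QuadraticForm F V} {qA : QuadraticForm F A} {qB : QuadraticForm F B} {M : Subgroup (orth Q)}
  {pu : A →ₗ[F] B →ₗ[F] V} {C : B →ₗ[F] V →ₗ[F] A}

/-- No layer lies in the group. -/
def Good (qB : QuadraticForm F B) (M : Subgroup (orth Q)) (pu : A →ₗ[F] B →ₗ[F] V) (C : B →ₗ[F] V →ₗ[F] A) : Prop :=
  ∀ z : B, z ≠ 0 → qB z = 0 → ∀ (G : A →ₗ[F] A), ∀ k ∈ M,
    (∀ v, (k : V ≃ₗ[F] V) v = v + pu (G (C z v)) z) → G = 0

/-- An element acting on the second factor only. -/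
def RightType (pu : A →ₗ[F] B →ₗ[F] V) (k : orth Q) : Prop :=
  ∃ h : B →ₗ[F] B, ∀ a w, (k : V ≃ₗ[F] V) (pu a w) = pu a (h w)

theorem RightType.pure {k : orth Q} (h : RightType pu k) : Pure pu k :=
  let ⟨K, hK⟩ := h
  ⟨LinearMap.id, K, hK⟩

theorem RightType.mul {k k' : orth Q} (h : RightType pu k) (h' : RightType pu k') : RightType pu (k * k') := by
  obtain ⟨K, hK⟩ := h
  obtain ⟨K', hK'⟩ := h'
  exact ⟨K.comp K', fun a w => by rw [orth_mul_apply, hK', hK]; rfl⟩

namespace TO

variable (T : TO Q qA qB M pu C)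
include T

theorem exists_rtp {z u : B} (hz : qB z = 0) (hzu : polar qB z u = 0) :
    ∃ k ∈ M, RightType pu k ∧
      (∀ a w, (k : V ≃ₗ[F] V) (pu a w) =
        pu a (w + polar qB z w • u - polar qB u w • z - (qB u * polar qB z w) • z)) ∧
      ∀ v, (k : V ≃ₗ[F] V) v = v + nil qB pu C z u v := by
  obtain ⟨k, hk, hkv⟩ := T.exists_right (TO.eichB_mem T.hB T.five z u)
  refine ⟨k, hk, ⟨((eich qB z u : orth qB) : B ≃ₗ[F] B).toLinearMap, hkv⟩, fun a w => ?_, fun v => ?_⟩
  · rw [hkv, eich_apply hz hzu]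
  · have key : ((k : V ≃ₗ[F] V).toLinearMap) = LinearMap.id + nil qB pu C z u := by
      refine T.eq_of_pure fun a w => ?_
      rw [LinearEquiv.coe_coe, hkv, LinearMap.add_apply, LinearMap.id_apply, T.nil_pu, eich_apply hz hzu]
      simp only [map_add, map_sub, map_smul]
      abel
    exact LinearMap.congr_fun key v

theorem C_right {k : orth Q} {h : B → B} (hk : ∀ a w, (k : V ≃ₗ[F] V) (pu a w) = pu a (h w)) (w : B) (v : V) :
    C (h w) ((k : V ≃ₗ[F] V) v) = C w v :=
  T.Aext fun b => by rw [T.adj, ← hk, orth_polar, T.adj]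

theorem C_left {k : orth Q} {g : orth qA} (hk : ∀ a w, (k : V ≃ₗ[F] V) (pu a w) = pu ((g : A ≃ₗ[F] A) a) w)
    (w : B) (v : V) : C w ((k : V ≃ₗ[F] V) v) = (g : A ≃ₗ[F] A) (C w v) := by
  refine T.Aext fun b => ?_
  obtain ⟨b, rfl⟩ := (g : A ≃ₗ[F] A).surjective b
  rw [T.adj, ← hk, orth_polar, orth_polar, T.adj]

theorem in2_of_perp {z η z' η' : B} (L : Ln qB z η z' η') {x : V} (h : ∀ u, Perp2 C z η u → polar Q x u = 0) :
    In2 pu z η x := by
  refine ⟨C z' x, C η' x, T.Vext fun w => T.Aext fun a => ?_⟩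
  have h1 := h (pu a w - pu (C z (pu a w)) z' - pu (C η (pu a w)) η') (T.perp2_rest L _)
  simp only [polar_sub_right, ← T.adj, T.C_pu, polar_smul_right, smul_eq_mul] at h1
  simp only [map_add, T.C_pu, polar_add_left, polar_smul_left, smul_eq_mul, polar_comm (⇑qB) z w,
    polar_comm (⇑qB) η w]
  linear_combination h1

theorem central_image {z η z' η' : B} (L : Ln qB z η z' η') {e : orth Q}
    (he : ∀ v, Perp2 C z η v → (e : V ≃ₗ[F] V) v = v) (v : V) : In2 pu z η ((e : V ≃ₗ[F] V) v - v) :=
  T.in2_of_perp L fun u hu => by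
    rw [polar_sub_left, sub_eq_zero]
    conv_lhs => rw [← he u hu]
    rw [orth_polar]

/-- The central part of the radical meets the group only in the root group. -/
theorem central (hg : Good qB M pu C) {z η z' η' : B} (L : Ln qB z η z' η') {e : orth Q} (he : e ∈ M)
    (hfix : ∀ v, Perp2 C z η v → (e : V ≃ₗ[F] V) v = v) :
    RightType pu e ∧ ∃ t : F, ∀ v, (e : V ≃ₗ[F] V) v = v + t • (pu (C z v) η - pu (C η v) z) := by
  set D : V →ₗ[F] V := (e : V ≃ₗ[F] V).toLinearMap - LinearMap.id with hDdef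
  have hD : ∀ v, D v = (e : V ≃ₗ[F] V) v - v := fun v => by simp [hDdef]
  have hD0 : ∀ v, Perp2 C z η v → D v = 0 := fun v hv => by rw [hD, hfix v hv, sub_self]
  have hzz : polar qB z z = 0 := by rw [polar_self', L.hp.left, mul_zero]
  have hηη : polar qB η η = 0 := by rw [polar_self', L.hq.left, mul_zero]
  have hηz : polar qB η z = 0 := by rw [polar_comm]; exact L.zη
  set G11 : A →ₗ[F] A := (C z').comp (D.comp (pu.flip z'))
  set G21 : A →ₗ[F] A := (C η').comp (D.comp (pu.flip z'))
  set G12 : A →ₗ[F] A := (C z').comp (D.comp (pu.flip η'))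
  set G22 : A →ₗ[F] A := (C η').comp (D.comp (pu.flip η'))
  have himg : ∀ v, D v = pu (C z' (D v)) z + pu (C η' (D v)) η := by
    intro v
    obtain ⟨a, b, hab⟩ := T.central_image L hfix v
    rw [← hD] at hab
    simp [hab, T.C_pu, L.hp.pair, L.hq.pair, L.zη', polar_comm (⇑qB) η z', L.z'η]
  have hform : ∀ v, D v = pu (G11 (C z v) + G12 (C η v)) z + pu (G21 (C z v) + G22 (C η v)) η := by
    intro v
    have h1 := hD0 _ (T.perp2_rest L v)
    simp only [map_sub] at h1
    have h2 : D v = D (pu (C z v) z') + D (pu (C η v) η') := by linear_combination (norm := module) h1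
    rw [h2, himg (pu (C z v) z'), himg (pu (C η v) η')]
    simp only [G11, G12, G21, G22, LinearMap.comp_apply, LinearMap.flip_apply, map_add, LinearMap.add_apply]
    abel
  have hev : ∀ v, (e : V ≃ₗ[F] V) v = v + (pu (G11 (C z v) + G12 (C η v)) z +
      pu (G21 (C z v) + G22 (C η v)) η) := fun v => by rw [← hform, hD]; abel
  have hSperp : ∀ x y, Perp2 C z η (pu x z + pu y η) := fun x y => T.perp2_of_in2 L ⟨x, y, rfl⟩
  -- the conjugates
  have hconj : ∀ c : F, ∃ ec ∈ M, ∀ v, (ec : V ≃ₗ[F] V) v = v +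
      (pu (G11 (C z v) + G12 (C η v - c • C z v) - c • (G21 (C z v) + G22 (C η v - c • C z v))) z +
        pu (G21 (C z v) + G22 (C η v - c • C z v)) η) := by
    intro c
    obtain ⟨x, hx, -, hxp, -⟩ := T.exists_rtp (z := z) (u := c • η') L.hp.left
      (by rw [polar_smul_right, L.zη', smul_zero])
    have hxz : ∀ a, (x : V ≃ₗ[F] V) (pu a z) = pu a z := fun a => by
      rw [hxp, hzz, polar_smul_left, polar_comm (⇑qB) η' z, L.zη']
      simp
    have hxη : ∀ a, (x : V ≃ₗ[F] V) (pu a η) = pu a η - c • pu a z := fun a => by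
      rw [hxp, L.zη, polar_smul_left, polar_comm (⇑qB) η' η, L.hq.pair]
      simp
    refine ⟨x * e * x⁻¹, M.mul_mem (M.mul_mem hx he) (M.inv_mem hx), fun u => ?_⟩
    obtain ⟨v, rfl⟩ := (x : V ≃ₗ[F] V).surjective u
    have hCz : C z ((x : V ≃ₗ[F] V) v) = C z v := by
      have hh := T.C_right (k := x) (h := fun w => w + polar qB z w • (c • η') - polar qB (c • η') w • z -
        (qB (c • η') * polar qB z w) • z) hxp z v
      simpa [hzz, polar_smul_left, polar_comm (⇑qB) η' z, L.zη'] using hh
    have hCη : C η ((x : V ≃ₗ[F] V) v) = C η v + c • C z v := by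
      have hh := T.C_right (k := x) (h := fun w => w + polar qB z w • (c • η') - polar qB (c • η') w • z -
        (qB (c • η') * polar qB z w) • z) hxp η v
      simp only [L.zη, polar_smul_left, polar_comm (⇑qB) η' η, L.hq.pair, zero_smul, mul_zero, add_zero, sub_zero,
        smul_eq_mul, mul_one, map_sub, map_smul, LinearMap.sub_apply, LinearMap.smul_apply] at hh
      rw [← hh, hCz]
      abel
    rw [orth_mul_apply, orth_mul_apply, orth_inv_apply_apply, hev, map_add, map_add, hxz, hxη, hCz, hCη,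
      add_sub_cancel_right]
    simp only [map_add, map_sub, map_smul, LinearMap.add_apply, LinearMap.sub_apply, LinearMap.smul_apply]
    abel
  -- the diagonal coefficient
  obtain ⟨e1, he1, he1v⟩ := hconj 1
  obtain ⟨e2, he2, he2v⟩ := hconj (-1)
  have hG22 : G22 = 0 := by
    have hk := hg z L.hp.ne_zero L.hp.left ((2 : F) • G22) (e1 * e2 * (e * e)⁻¹)
      (M.mul_mem (M.mul_mem he1 he2) (M.inv_mem (M.mul_mem he he))) fun u => by
      obtain ⟨v, rfl⟩ := ((e * e : orth Q) : V ≃ₗ[F] V).surjective u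
      rw [orth_mul_apply, orth_inv_apply_apply, orth_mul_apply, orth_mul_apply]
      have hC : ∀ a b : A, C z (pu a z + pu b η) = 0 ∧ C η (pu a z + pu b η) = 0 := fun a b => hSperp a b
      rw [hev (((e : orth Q) : V ≃ₗ[F] V) v), hev v, he1v, he2v]
      simp only [map_add, (hC _ _).1, (hC _ _).2, add_zero, LinearMap.smul_apply, map_smul]
      simp only [map_sub, map_add, map_smul, map_neg, neg_smul, one_smul, sub_neg_eq_add, LinearMap.add_apply,
        LinearMap.sub_apply, LinearMap.smul_apply, LinearMap.neg_apply, T.C_pu, hzz, hηη, L.zη, hηz, zero_smul,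
        sub_zero, add_zero, map_zero, LinearMap.zero_apply, smul_zero, neg_zero]
      module
    exact (smul_eq_zero.1 hk).resolve_left T.two
  have hiso : ∀ v v', polar Q (D v) v' + polar Q v (D v') = 0 := by
    intro v v'
    have h1 := orth_polar e v v'
    rw [hev v, hev v', ← hform, ← hform] at h1
    have h2 : polar Q (D v) (D v') = 0 := by
      rw [himg v, himg v']
      simp only [polar_add_left, polar_add_right, T.form, hzz, hηη, L.zη, hηz, mul_zero, add_zero]
    simp only [polar_add_left, polar_add_right, h2] at h1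
    linear_combination h1
  have h11' : G11 = 0 := by
    -- the other diagonal coefficient, by symmetry
    have hD' : ∀ v, Perp2 C η z v → (e : V ≃ₗ[F] V) v = v := fun v hv => hfix v ⟨hv.2, hv.1⟩
    obtain ⟨x, hx, -, hxp, -⟩ := T.exists_rtp (z := η) (u := z') L.hq.left
      (by rw [polar_comm, L.z'η])
    obtain ⟨y, hy, -, hyp, -⟩ := T.exists_rtp (z := η) (u := -z') L.hq.left
      (by rw [polar_neg_right, polar_comm, L.z'η, neg_zero])
    have hk := hg η L.hq.ne_zero L.hq.left ((2 : F) • G11) ((x * e * x⁻¹) * (y * e * y⁻¹) * (e * e)⁻¹)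
      (M.mul_mem (M.mul_mem (M.mul_mem (M.mul_mem hx he) (M.inv_mem hx)) (M.mul_mem (M.mul_mem hy he)
        (M.inv_mem hy))) (M.inv_mem (M.mul_mem he he))) fun u => by
      obtain ⟨v, rfl⟩ := ((e * e : orth Q) : V ≃ₗ[F] V).surjective u
      have hX : ∀ (s : F) (w : orth Q), (∀ a b, (w : V ≃ₗ[F] V) (pu a b) =
          pu a (b + polar qB η b • (s • z') - polar qB (s • z') b • η - (qB (s • z') * polar qB η b) • η)) →
          ∀ u, ((w * e * w⁻¹ : orth Q) : V ≃ₗ[F] V) u = u +
            (pu (G11 (C z u - s • C η u) + G12 (C η u)) z +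
              pu (G21 (C z u - s • C η u) + G22 (C η u) - s • (G11 (C z u - s • C η u) + G12 (C η u))) η) := by
        intro s w hw u
        obtain ⟨v, rfl⟩ := (w : V ≃ₗ[F] V).surjective u
        have hwη : ∀ a, (w : V ≃ₗ[F] V) (pu a η) = pu a η := fun a => by
          rw [hw, hηη, polar_smul_left, L.z'η]; simp
        have hwz : ∀ a, (w : V ≃ₗ[F] V) (pu a z) = pu a z - s • pu a η := fun a => by
          rw [hw, hηz, polar_smul_left, polar_comm (⇑qB) z' z, L.hp.pair]; simp
        have hCη : C η ((w : V ≃ₗ[F] V) v) = C η v := by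
          have hh := T.C_right (k := w) hw η v
          simpa [hηη, polar_smul_left, L.z'η] using hh
        have hCz : C z ((w : V ≃ₗ[F] V) v) = C z v + s • C η v := by
          have hh := T.C_right (k := w) hw z v
          simp only [hηz, polar_smul_left, polar_comm (⇑qB) z' z, L.hp.pair, zero_smul, mul_zero, add_zero,
            sub_zero, smul_eq_mul, mul_one, map_sub, map_smul, LinearMap.sub_apply, LinearMap.smul_apply] at hh
          rw [← hh, hCη]
          abel
        rw [orth_mul_apply, orth_mul_apply, orth_inv_apply_apply, hev, map_add, map_add, hwz, hwη, hCη, hCz,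
          add_sub_cancel_right]
        simp only [map_add, map_sub, map_smul, LinearMap.add_apply, LinearMap.sub_apply, LinearMap.smul_apply]
        abel
      rw [orth_mul_apply ((x * e * x⁻¹) * (y * e * y⁻¹)), orth_inv_apply_apply, orth_mul_apply (x * e * x⁻¹),
        orth_mul_apply e e v,
        hX 1 x (fun a b => by rw [hxp, one_smul]), hX (-1) y (fun a b => by rw [hyp, neg_one_smul]),
        hev (((e : orth Q) : V ≃ₗ[F] V) v), hev v]
      simp only [map_add, map_sub, map_smul, map_neg, neg_smul, one_smul, sub_neg_eq_add, LinearMap.add_apply,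
        LinearMap.sub_apply, LinearMap.smul_apply, LinearMap.neg_apply, T.C_pu, hzz, hηη, L.zη, hηz, zero_smul,
        sub_zero, add_zero, map_zero, LinearMap.zero_apply, smul_zero, neg_zero]
      module
    exact (smul_eq_zero.1 hk).resolve_left T.two
  have hG21 : G21 = -G12 := by
    have hk := hg z L.hp.ne_zero L.hp.left (-(G12 + G21)) (e1 * e⁻¹) (M.mul_mem he1 (M.inv_mem he)) fun u => by
      obtain ⟨v, rfl⟩ := (e : V ≃ₗ[F] V).surjective u
      rw [orth_mul_apply, orth_inv_apply_apply, he1v, hev, hG22, h11']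
      simp only [map_add, map_sub, map_neg, map_smul, one_smul, LinearMap.add_apply, LinearMap.sub_apply,
        LinearMap.neg_apply, LinearMap.zero_apply, map_zero, zero_add, add_zero, T.C_pu, hzz, hηη, L.zη, hηz,
        zero_smul, sub_zero, smul_zero, neg_zero]
      module
    rw [neg_eq_zero] at hk
    exact eq_neg_of_add_eq_zero_right hk
  have hev' : ∀ v, (e : V ≃ₗ[F] V) v = v + (pu (G12 (C η v)) z - pu (G12 (C z v)) η) := by
    intro v
    rw [hev, hG22, h11', hG21]
    simp [sub_eq_add_neg]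
  have hsa : ∀ a b, polar qA (G12 a) b = polar qA a (G12 b) := by
    intro a b
    have h1 := hiso (pu a η') (pu b z')
    rw [hform, hform, hG22, h11', hG21] at h1
    simp only [T.C_pu, polar_comm (⇑qB) η' z, L.zη', polar_comm (⇑qB) η' η, L.hq.pair, polar_comm (⇑qB) z' z,
      L.hp.pair, L.z'η, one_smul, zero_smul, LinearMap.zero_apply, map_zero, LinearMap.neg_apply, add_zero,
      zero_add, map_add, LinearMap.add_apply, map_neg] at h1
    simp only [polar_add_left, polar_add_right, polar_neg_left, polar_neg_right, polar_zero_left, polar_zero_right,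
      T.form, polar_comm (⇑qB) η z', L.z'η, L.hp.pair, L.zη', polar_comm (⇑qB) η' η, polar_comm (⇑qB) η' z,
      L.hq.pair, polar_comm (⇑qB) z' z, mul_one, mul_zero, add_zero, zero_add, neg_zero] at h1
    linear_combination h1
  obtain ⟨c, hc⟩ : ∃ c : F, ∀ x, G12 x = c • x := by
    refine scalar_of_commute T.hA T.two T.three T.big T.eichA_mem hsa fun g hgm => ?_
    obtain ⟨s, hs, hsn⟩ : ∃ s ∈ pperp qB z z' ⊓ pperp qB η η', qB s ≠ 0 := by
      by_contra hall
      push Not at hall
      have hperp := le_perp_of_forall_eq_zero (Q := qB) hall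
      have hproj : ∀ w, ∀ s ∈ pperp qB z z' ⊓ pperp qB η η', polar qB s w = 0 := by
        intro w s hs
        have hw1 : w - polar qB z' w • z - polar qB z w • z' - polar qB η' w • η - polar qB η w • η' ∈
            pperp qB z z' ⊓ pperp qB η η' := by
          rw [Submodule.mem_inf, mem_pperp, mem_pperp]
          refine ⟨⟨?_, ?_⟩, ?_, ?_⟩ <;>
            simp [polar_sub_right, polar_smul_right, polar_self', L.hp.left, L.hp.right, L.hq.left, L.hq.right,
              L.hp.pair, L.hq.pair, L.zη, L.zη', L.z'η, L.z'η', polar_comm (⇑qB) z' z, polar_comm (⇑qB) η' η,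
              polar_comm (⇑qB) η z, polar_comm (⇑qB) η z', polar_comm (⇑qB) η' z, polar_comm (⇑qB) η' z']
        have h1 := mem_perp.1 (hperp hs) _ hw1
        obtain ⟨h2, h3⟩ := Submodule.mem_inf.1 hs
        rw [mem_pperp] at h2 h3
        simp only [polar_sub_left, polar_smul_left, h2.1, h2.2, h3.1, h3.2, smul_zero, sub_zero] at h1
        rwa [polar_comm]
      have hbot : pperp qB z z' ⊓ pperp qB η η' = ⊥ := by
        rw [eq_bot_iff]
        intro s hs
        exact (Submodule.mem_bot F).2 (T.hB.1 s fun w => hproj w s hs)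
      have h1 := L.hp.finrank_pperp T.hB
      have h2 := L.hq.finrank_pperp T.hB
      have h3 := Submodule.finrank_sup_add_finrank_inf_eq (pperp qB z z') (pperp qB η η')
      have h4 := Submodule.finrank_le (pperp qB z z' ⊔ pperp qB η η')
      rw [hbot, finrank_bot] at h3
      have := T.five
      omega
    obtain ⟨hs1, hs2⟩ := Submodule.mem_inf.1 hs
    rw [mem_pperp] at hs1 hs2
    obtain ⟨kl, hkl, hklp⟩ := T.exists_left hgm
    obtain ⟨h, hh, -, hhp, -⟩ := T.exists_rtp (z := η') (u := s) L.hq.right hs2.2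
    set η₂ := η + s - qB s • η' with hη₂
    have hhz : ∀ a, (h : V ≃ₗ[F] V) (pu a z) = pu a z := fun a => by
      rw [hhp, polar_comm (⇑qB) η' z, L.zη', polar_comm (⇑qB) s z, hs1.1]; simp
    have hhη : ∀ a, (h : V ≃ₗ[F] V) (pu a η) = pu a η₂ := fun a => by
      rw [hhp, polar_comm (⇑qB) η' η, L.hq.pair, polar_comm (⇑qB) s η, hs2.1, hη₂]; simp
    set P' := cj g G12
    set e' := h * (kl * e * kl⁻¹) * h⁻¹
    have he' : e' ∈ M := M.mul_mem (M.mul_mem hh (M.mul_mem (M.mul_mem hkl he) (M.inv_mem hkl))) (M.inv_mem hh)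
    have hCz : ∀ v, C z ((h : V ≃ₗ[F] V) v) = C z v := fun v => by
      have := T.C_right (k := h) hhp z v
      simpa [polar_comm (⇑qB) η' z, L.zη', polar_comm (⇑qB) s z, hs1.1] using this
    have hCη : ∀ v, C η₂ ((h : V ≃ₗ[F] V) v) = C η v := fun v => by
      have := T.C_right (k := h) hhp η v
      simpa [polar_comm (⇑qB) η' η, L.hq.pair, polar_comm (⇑qB) s η, hs2.1, hη₂] using this
    have he'v : ∀ u, (e' : V ≃ₗ[F] V) u = u + (pu (P' (C η₂ u)) z - pu (P' (C z u)) η₂) := by
      intro u
      obtain ⟨w, rfl⟩ := (h : V ≃ₗ[F] V).surjective u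
      obtain ⟨v, rfl⟩ := (kl : V ≃ₗ[F] V).surjective w
      simp only [e', orth_mul_apply, orth_inv_apply_apply, hev', map_add, map_sub, hhz, hhη, hklp, hCz, hCη,
        T.C_left hklp, P', cj_apply]
    have hqη : polar qB η₂ η = - qB s ∧ polar qB η η₂ = - qB s := by
      refine ⟨?_, ?_⟩ <;> simp [hη₂, polar_add_left, polar_sub_left, polar_smul_left, polar_add_right,
        polar_sub_right, polar_smul_right, hηη, polar_comm (⇑qB) s η, hs2.1, polar_comm (⇑qB) η' η, L.hq.pair]
    have hzη₂ : polar qB η₂ z = 0 ∧ polar qB z η₂ = 0 := by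
      refine ⟨?_, ?_⟩ <;> simp [hη₂, polar_add_left, polar_sub_left, polar_smul_left, polar_add_right,
        polar_sub_right, polar_smul_right, hηz, L.zη, polar_comm (⇑qB) s z, hs1.1, polar_comm (⇑qB) η' z, L.zη']
    have hk := hg z L.hp.ne_zero L.hp.left (qB s • (G12.comp P' - P'.comp G12)) ((e * e') * (e' * e)⁻¹)
      (M.mul_mem (M.mul_mem he he') (M.inv_mem (M.mul_mem he' he))) fun u => by
      obtain ⟨v, rfl⟩ := ((e' * e : orth Q) : V ≃ₗ[F] V).surjective u
      rw [orth_mul_apply (e * e'), orth_inv_apply_apply, orth_mul_apply e e', orth_mul_apply e' e, hev', he'v, he'v,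
        hev']
      simp only [map_add, map_sub, LinearMap.add_apply, LinearMap.sub_apply, T.C_pu, hzz, hqη.1, hqη.2, hzη₂.1,
        hzη₂.2, hηz, L.zη, zero_smul, neg_smul, sub_zero, add_zero, zero_sub, map_zero, LinearMap.zero_apply,
        LinearMap.smul_apply, LinearMap.comp_apply, map_neg, map_smul, LinearMap.neg_apply, neg_neg]
      module
    intro x
    have := LinearMap.congr_fun ((smul_eq_zero.1 hk).resolve_left hsn) x
    rwa [LinearMap.sub_apply, LinearMap.zero_apply, sub_eq_zero, LinearMap.comp_apply,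
      LinearMap.comp_apply] at this
  have hfinal : ∀ v, (e : V ≃ₗ[F] V) v = v + (-c) • (pu (C z v) η - pu (C η v) z) := fun v => by
    rw [hev', hc, hc, map_smul, map_smul, LinearMap.smul_apply, LinearMap.smul_apply]; module
  refine ⟨?_, -c, hfinal⟩
  obtain ⟨r, -, hr, -, hrv⟩ := T.exists_rtp (z := z) (u := (-c) • η) L.hp.left
    (by rw [polar_smul_right, L.zη, smul_zero])
  have : e = r := orth_ext fun v => by
    rw [hfinal, hrv, nil_apply, map_smul, map_smul, LinearMap.smul_apply, map_smul, LinearMap.smul_apply,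
      QuadraticMap.map_smul, L.hq.left, smul_zero, zero_smul, sub_zero, smul_sub]
  rw [this]
  exact hr

theorem proj_perp {z η z' η' : B} (L : Ln qB z η z' η') (w : B) :
    polar qB z (w - polar qB z' w • z - polar qB z w • z' - polar qB η' w • η - polar qB η w • η') = 0 ∧
    polar qB z' (w - polar qB z' w • z - polar qB z w • z' - polar qB η' w • η - polar qB η w • η') = 0 ∧
    polar qB η (w - polar qB z' w • z - polar qB z w • z' - polar qB η' w • η - polar qB η w • η') = 0 ∧
    polar qB η' (w - polar qB z' w • z - polar qB z w • z' - polar qB η' w • η - polar qB η w • η') = 0 := by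
  refine ⟨?_, ?_, ?_, ?_⟩ <;>
    simp [polar_sub_right, polar_smul_right, polar_self', L.hp.left, L.hp.right, L.hq.left, L.hq.right,
      L.hp.pair, L.hq.pair, L.zη, L.zη', L.z'η, L.z'η', polar_comm (⇑qB) z' z, polar_comm (⇑qB) η' η,
      polar_comm (⇑qB) η z, polar_comm (⇑qB) η z', polar_comm (⇑qB) η' z, polar_comm (⇑qB) η' z']

/-- An element of the radical of the stabiliser of a line space acts on the second factor only. -/
theorem radical (hg : Good qB M pu C) {z η z' η' : B} (L : Ln qB z η z' η') {k : orth Q} (hkM : k ∈ M)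
    (hS : ∀ v, In2 pu z η v → (k : V ≃ₗ[F] V) v = v)
    (hdown : ∀ v, Perp2 C z η v → In2 pu z η ((k : V ≃ₗ[F] V) v - v)) : RightType pu k := by
  set D : V →ₗ[F] V := (k : V ≃ₗ[F] V).toLinearMap - LinearMap.id with hDdef
  have hD : ∀ v, D v = (k : V ≃ₗ[F] V) v - v := fun v => by simp [hDdef]
  have hkv : ∀ v, (k : V ≃ₗ[F] V) v = v + D v := fun v => by rw [hD]; abel
  have hzz : polar qB z z = 0 := by rw [polar_self', L.hp.left, mul_zero]
  have hηη : polar qB η η = 0 := by rw [polar_self', L.hq.left, mul_zero]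
  have hηz : polar qB η z = 0 := by rw [polar_comm]; exact L.zη
  have hDperp : ∀ v, Perp2 C z η (D v) := fun v => (T.perp2_iff).2 fun u hu => by
    rw [hD, polar_sub_left, sub_eq_zero]
    conv_lhs => rw [← hS u hu]
    rw [orth_polar]
  have hDskew : ∀ v v', Perp2 C z η v → polar Q (D v) v' + polar Q v (D v') = 0 := by
    intro v v' hv
    have h1 := orth_polar k v v'
    rw [hkv v, hkv v'] at h1
    have h2 : polar Q (D v) (D v') = 0 := by
      rw [polar_comm]
      exact (T.perp2_iff).1 (hDperp v') _ (hD v ▸ hdown v hv)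
    simp only [polar_add_left, polar_add_right, h2] at h1
    linear_combination h1
  obtain ⟨a₀, ha₀⟩ : ∃ a : A, a ≠ 0 := by
    by_contra hall
    push Not at hall
    haveI : Subsingleton A := ⟨fun x y => by rw [hall x, hall y]⟩
    have := T.three
    rw [finrank_zero_of_subsingleton] at this
    omega
  obtain ⟨a₁, ha₁⟩ := exists_polar_eq_one T.hA ha₀
  -- the scalar coefficients
  have coef : ∀ (z η z' η' : B), Ln qB z η z' η' → (∀ v, In2 pu z η v → (k : V ≃ₗ[F] V) v = v) →
      (∀ v, Perp2 C z η v → In2 pu z η ((k : V ≃ₗ[F] V) v - v)) → ∀ s, polar qB z s = 0 → polar qB η s = 0 →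
      polar qB z' s = 0 → polar qB η' s = 0 →
      ∀ a, C s (D (pu a η')) = polar Q (D (pu a₀ η')) (pu a₁ s) • a := by
    intro z η z' η' L hS hdown s hs1 hs2 hs3 hs4
    have hηz : polar qB η z = 0 := by rw [polar_comm]; exact L.zη
    have hzz : polar qB z z = 0 := by rw [polar_self', L.hp.left, mul_zero]
    obtain ⟨r, hr, -, hrp, hrn⟩ := T.exists_rtp (z := z) (u := s) L.hp.left hs1
    have hrS : ∀ v, In2 pu z η v → (r : V ≃ₗ[F] V) v = v := by
      rintro _ ⟨a, b, rfl⟩
      rw [map_add, hrp, hrp, hzz, L.zη, polar_comm (⇑qB) s z, hs1, polar_comm (⇑qB) s η, hs2]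
      simp
    set c := (k * r) * (r * k)⁻¹ with hc
    have hfix : ∀ v, Perp2 C z η v → (c : V ≃ₗ[F] V) v = v := by
      intro u hu
      obtain ⟨v, rfl⟩ := ((r * k : orth Q) : V ≃ₗ[F] V).surjective u
      have hiff : ∀ w, In2 pu z η w ↔ In2 pu z η (((r * k : orth Q) : V ≃ₗ[F] V) w) := by
        intro w
        constructor
        · intro hw; rwa [orth_mul_apply, hS w hw, hrS w hw]
        · intro hw
          have e : ((r * k : orth Q) : V ≃ₗ[F] V) (((r * k : orth Q) : V ≃ₗ[F] V) w) =
              ((r * k : orth Q) : V ≃ₗ[F] V) w := by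
            rw [orth_mul_apply r k (((r * k : orth Q) : V ≃ₗ[F] V) w), hS _ hw, hrS _ hw]
          rwa [← (((r * k : orth Q) : V ≃ₗ[F] V).injective e)]
      have hv : Perp2 C z η v := (T.perp2_map hiff).2 hu
      rw [hc, orth_mul_apply (k * r), orth_inv_apply_apply, orth_mul_apply k r, orth_mul_apply r k, hrn v]
      have hn : In2 pu z η (nil qB pu C z s v) := ⟨-C s v, 0, by simp [nil_apply, hv.1]⟩
      have hd : In2 pu z η ((k : V ≃ₗ[F] V) v - v) := hdown v hv
      rw [map_add, hS _ hn]
      conv_rhs => rw [← add_sub_cancel v ((k : V ≃ₗ[F] V) v), map_add, hrS _ hd, hrn]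
      abel
    obtain ⟨-, t, ht⟩ := T.central hg L (M.mul_mem (M.mul_mem hkM hr) (M.inv_mem (M.mul_mem hr hkM))) hfix
    have hst : ∀ a, C s (D (pu a η')) = -t • a := by
      intro a
      set X := D (pu a η') with hX
      have hXz : C z X = 0 ∧ C η X = 0 := (T.perp2_iff).2 fun u hu => by
        rw [hX, hD, polar_sub_left, sub_eq_zero]
        conv_lhs => rw [← hS u hu]
        rw [orth_polar]
      have h1 : ((k * r : orth Q) : V ≃ₗ[F] V) (pu a η') =
          (c : V ≃ₗ[F] V) (((r * k : orth Q) : V ≃ₗ[F] V) (pu a η')) := by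
        rw [hc, orth_mul_apply (k * r), orth_inv_apply_apply]
      have hsη' : polar qB s η' = 0 := by rw [polar_comm]; exact hs4
      rw [orth_mul_apply k r, orth_mul_apply r k, hrp, L.zη', hsη'] at h1
      simp only [zero_smul, mul_zero, add_zero, sub_zero] at h1
      rw [hkv (pu a η'), ← hX, hrn (pu a η' + X), ht] at h1
      simp only [nil_apply, map_add, hXz.1, hXz.2, T.C_pu, polar_comm (⇑qB) η' z, L.zη', polar_comm (⇑qB) η' η,
        L.hq.pair, hs4, L.zη, hηz, hs1, hzz,
        zero_smul, one_smul, add_zero, zero_add, map_zero, LinearMap.zero_apply, map_sub, map_smul,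
        LinearMap.smul_apply, smul_zero, sub_zero, zero_sub, map_neg, LinearMap.neg_apply, neg_zero, neg_smul,
        neg_neg] at h1
      have h2 : pu (C s X + t • a) z = 0 := by
        rw [map_add, map_smul, LinearMap.add_apply, LinearMap.smul_apply]
        linear_combination (norm := module) h1
      rcases T.pu_eq_zero h2 with h3 | h3
      · rw [eq_neg_of_add_eq_zero_left h3, neg_smul]
      · exact absurd h3 L.hp.ne_zero
    intro a
    rw [hst a, ← T.adj, hst a₀, polar_smul_left, ha₁, smul_eq_mul, mul_one]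
  have coefη := coef z η z' η' L hS hdown
  have coefz := coef η z η' z' L.symm (fun v hv => hS v hv.swap) (fun v hv => (hdown v ⟨hv.2, hv.1⟩).swap)
  -- Riesz vectors
  have riesz : ∀ a, ∃ u : B, ∀ w, polar qB u w = polar Q (D (pu a₀ a)) (pu a₁ w) := by
    intro a
    have e := (LinearMap.BilinForm.toDual (polarBilin qB) T.hB).surjective (((polarBilin Q) (D (pu a₀ a))).comp (pu a₁))
    obtain ⟨u, hu⟩ := e
    exact ⟨u, fun w => by
      have := LinearMap.congr_fun hu w
      rwa [LinearMap.BilinForm.toDual_def, LinearMap.comp_apply, polarBilin_apply_apply,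
        polarBilin_apply_apply] at this⟩
  obtain ⟨uz, huz⟩ := riesz z'
  obtain ⟨uη, huη⟩ := riesz η'
  set u1 := uz - polar qB z' uz • z - polar qB z uz • z' - polar qB η' uz • η - polar qB η uz • η' with hu1
  set u2 := uη - polar qB z' uη • z - polar qB z uη • z' - polar qB η' uη • η - polar qB η uη • η' with hu2
  obtain ⟨h11, h12, h13, h14⟩ := T.proj_perp L uz
  obtain ⟨h21, h22, h23, h24⟩ := T.proj_perp L uη
  rw [← hu1] at h11 h12 h13 h14
  rw [← hu2] at h21 h22 h23 h24
  have hpu : ∀ s, polar qB z s = 0 → polar qB η s = 0 → polar qB z' s = 0 → polar qB η' s = 0 →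
      polar qB u1 s = polar qB uz s ∧ polar qB u2 s = polar qB uη s := by
    intro s h1 h2 h3 h4
    simp [hu1, hu2, polar_sub_left, polar_smul_left, h1, h2, h3, h4]
  have hDs : ∀ a s, polar qB z s = 0 → polar qB η s = 0 → polar qB z' s = 0 → polar qB η' s = 0 →
      D (pu a s) = -(pu a (polar qB u1 s • z + polar qB u2 s • η)) := by
    intro a s h1 h2 h3 h4
    have hp : Perp2 C z η (pu a s) := by
      constructor <;> simp [T.C_pu, polar_comm (⇑qB) s z, polar_comm (⇑qB) s η, h1, h2]
    obtain ⟨x, y, hxy⟩ := hdown _ hp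
    rw [← hD] at hxy
    have hx : x = -(polar qB u1 s • a) := by
      refine T.Aext fun b => ?_
      have e1 : polar qA x b = polar Q (D (pu a s)) (pu b z') := by
        rw [hxy, ← T.adj, map_add, T.C_pu, T.C_pu, L.hp.pair, polar_comm (⇑qB) η z', L.z'η]
        simp
      have e2 := hDskew (pu a s) (pu b z') hp
      rw [polar_comm (⇑Q) (pu a s), ← T.adj s (D (pu b z')) a, coefz s h2 h1 h4 h3 b, ← huz, ← (hpu s h1 h2 h3 h4).1] at e2
      rw [e1, polar_neg_left, polar_smul_left, smul_eq_mul]
      rw [polar_smul_left, smul_eq_mul, polar_comm (⇑qA) b a] at e2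
      linear_combination e2
    have hy : y = -(polar qB u2 s • a) := by
      refine T.Aext fun b => ?_
      have e1 : polar qA y b = polar Q (D (pu a s)) (pu b η') := by
        rw [hxy, ← T.adj, map_add, T.C_pu, T.C_pu, L.hq.pair, L.zη']
        simp
      have e2 := hDskew (pu a s) (pu b η') hp
      rw [polar_comm (⇑Q) (pu a s), ← T.adj s (D (pu b η')) a, coefη s h1 h2 h3 h4 b, ← huη, ← (hpu s h1 h2 h3 h4).2] at e2
      rw [e1, polar_neg_left, polar_smul_left, smul_eq_mul]
      rw [polar_smul_left, smul_eq_mul, polar_comm (⇑qA) b a] at e2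
      linear_combination e2
    rw [hxy, hx, hy]
    simp only [map_neg, map_smul, map_add, LinearMap.neg_apply, LinearMap.smul_apply]
    abel
  obtain ⟨r1, hr1, hr1t, hr1p, -⟩ := T.exists_rtp (z := z) (u := u1) L.hp.left h11
  obtain ⟨r2, hr2, hr2t, hr2p, -⟩ := T.exists_rtp (z := η) (u := u2) L.hq.left h23
  have hr2z : ∀ a, (r2 : V ≃ₗ[F] V) (pu a z) = pu a z := fun a => by
    rw [hr2p, hηz, polar_comm (⇑qB) u2 z, h21]; simp
  have hr2η : ∀ a, (r2 : V ≃ₗ[F] V) (pu a η) = pu a η := fun a => by
    rw [hr2p, hηη, polar_comm (⇑qB) u2 η, h23]; simp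
  have hr1z : ∀ a, (r1 : V ≃ₗ[F] V) (pu a z) = pu a z := fun a => by
    rw [hr1p, hzz, polar_comm (⇑qB) u1 z, h11]; simp
  have hr1η : ∀ a, (r1 : V ≃ₗ[F] V) (pu a η) = pu a η := fun a => by
    rw [hr1p, L.zη, polar_comm (⇑qB) u1 η, h13]; simp
  have hkz : ∀ a, (k : V ≃ₗ[F] V) (pu a z) = pu a z := fun a => hS _ ⟨a, 0, by simp⟩
  have hkη : ∀ a, (k : V ≃ₗ[F] V) (pu a η) = pu a η := fun a => hS _ ⟨0, a, by simp⟩
  let π : V →ₗ[F] V := LinearMap.id - (pu.flip z').comp (C z) - (pu.flip η').comp (C η)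
  have hπ : (k : V ≃ₗ[F] V).toLinearMap.comp π = ((r1 * r2 : orth Q) : V ≃ₗ[F] V).toLinearMap.comp π := by
    refine T.eq_of_pure fun a w => ?_
    set w0 := w - polar qB z' w • z - polar qB z w • z' - polar qB η' w • η - polar qB η w • η' with hw0
    obtain ⟨g1, g2, g3, g4⟩ := T.proj_perp L w
    rw [← hw0] at g1 g2 g3 g4
    have e : π (pu a w) = pu a w0 + polar qB z' w • pu a z + polar qB η' w • pu a η := by
      simp [π, hw0, T.C_pu, polar_comm (⇑qB) w z, polar_comm (⇑qB) w η]
      abel
    simp only [LinearMap.comp_apply, LinearEquiv.coe_coe]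
    rw [e]
    simp only [map_add, map_smul, orth_mul_apply, hr2z, hr2η, hr1z, hr1η, hkz, hkη]
    rw [hkv, hDs a w0 g1 g3 g2 g4, hr2p, g3]
    simp only [map_add, map_sub, map_smul, map_zero, zero_smul, mul_zero, add_zero, sub_zero, hr1η, hr1p, g1]
    abel
  have hfix : ∀ v, Perp2 C z η v → (((r1 * r2)⁻¹ * k : orth Q) : V ≃ₗ[F] V) v = v := by
    intro v hv
    have hπv : π v = v := by simp [π, hv.1, hv.2]
    have e := LinearMap.congr_fun hπ v
    simp only [LinearMap.comp_apply, LinearEquiv.coe_coe, hπv] at e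
    rw [orth_mul_apply, e, orth_inv_apply_apply]
  have hc := (T.central hg L (M.mul_mem (M.inv_mem (M.mul_mem hr1 hr2)) hkM) hfix).1
  have := (hr1t.mul hr2t).mul hc
  rwa [mul_inv_cancel_left] at this

end TO

end Cfsg.Agent.H50.TensorO
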